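import Cfsg.Agent.OrthFrame90.Maximal
import Cfsg.Agent.OrthMono17.Final
import Cfsg.Agent.OrthGeo.DecompMember

/-! The seven-dimensional case from the odd-dimensional theorem, and the maximality theorem. -/

set_option autoImplicit false
set_option linter.unusedSectionVars false

namespace CfsgLib.OrthFrame90

open Cfsg Cfsg.Geo Module CfsgLib.OrthGeo
open scoped Matrix MatrixGroups

attribute [-simp] bform_apply

variable {F : Type*} [Field F] [Fintype F]

theorem baseSeven (hp : (Fintype.card F).Prime) : BaseSeven F := by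
  intro c hc h2 H hH hG _
  have hF := frame_sumSq (κ := Fin 7) hc h2
  let 𝔉 : OrthMono17.Frame (sumSq (Fin 7) c) (Fin 7) :=
    ⟨hF.nd, h2, Pi.basisFun F (Fin 7), c, hc, fun k => by rw [Pi.basisFun_apply]; exact hF.norm k,
      fun k l h => by rw [Pi.basisFun_apply, Pi.basisFun_apply]; exact hF.b_ne h⟩
  have hb : ∀ k, 𝔉.basis k = (Pi.single k 1 : Fin 7 → F) := fun k => Pi.basisFun_apply F (Fin 7) k
  have hD : 𝔉.Data H Finset.univ := by
    refine ⟨hH, fun g _ x _ k hk => absurd (Finset.mem_univ k) hk, fun a _ b _ hab => ?_,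
      fun a _ b _ d _ hab hbd had => ?_⟩
    · obtain ⟨g, hg, h1, h2', h3⟩ := hG.flip a b hab
      refine ⟨g, hg, fun k _ => ?_⟩
      rw [hb]
      by_cases hk : k = a ∨ k = b
      · rw [if_pos hk, neg_one_smul]
        rcases hk with rfl | rfl
        · exact h1
        · exact h2'
      · rw [if_neg hk, one_smul]
        exact h3 k (fun h => hk (.inl h)) (fun h => hk (.inr h))
    · obtain ⟨g, hg, h1, h2', h3, h4⟩ := hG.three a b d hab hbd had
      refine ⟨g, hg, fun k _ => ?_⟩
      rw [hb, hb]
      by_cases ka : k = a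
      · rw [if_pos ka, ka]; exact h1
      by_cases kb : k = b
      · rw [if_neg ka, if_pos kb, kb]; exact h2'
      by_cases kd : k = d
      · rw [if_neg ka, if_neg kb, if_pos kd, kd]; exact h3
      rw [if_neg ka, if_neg kb, if_neg kd]
      exact h4 k ka kb kd
  by_cases hm : ∀ g ∈ H, 𝔉.Mono Finset.univ g
  · refine Or.inl fun g hg i => ?_
    obtain ⟨j, -, a, ha⟩ := hm g hg i (Finset.mem_univ _)
    rw [hb, hb] at ha
    exact ⟨j, hF.pm_of_smul (hH hg) ha⟩
  · refine Or.inr fun a b ha hab => eIn_of_mem hF.nd ha hab ?_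
    exact OrthMono17.Frame.omegaGL_le_of_not_mono hp (by decide) (by decide) (by simp) (by decide) hD hm
      (eichler_mem_omega hF.nd (by decide) ha hab)

variable {ι : Type} [Fintype ι] [DecidableEq ι] {Q : (ι → F) → F}

/-- The stabiliser in Omega of an orthogonal frame over a prime field is maximal in dimension at least nine. -/
theorem frame_isMaximal (hQ : IsNondegenerateQuadraticForm Q) (hn : 9 ≤ Fintype.card ι)
    (hprime : (Fintype.card F).Prime) (hodd : Odd (Fintype.card F)) {t : ℕ}
    {D : Fin t → Submodule F (ι → F)} (hD : IsOrthogonalMDecomposition Q 1 D) :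
    IsMaximalIn (omegaGL Q) (decompositionStabilizer D ⊓ omegaGL Q) := by
  have h2 : (2 : F) ≠ 0 := by
    intro h
    have hc := ringChar_eq_two_of_two_eq_zero h
    have := FiniteField.even_card_of_char_two hc
    rw [Nat.odd_iff] at hodd
    omega
  exact frame_isMaximal_of_base hQ hn h2 (baseSeven hprime) hD

end CfsgLib.OrthFrame90
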