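import Cfsg.Agent.OrthFrame90.Full

/-! From seven frame vectors to any larger number. -/

set_option autoImplicit false
set_option linter.unusedSectionVars false

namespace CfsgLib.OrthFrame90

open Cfsg Cfsg.Geo Module CfsgLib.OrthGeo Finset
open scoped Matrix MatrixGroups

attribute [-simp] bform_apply

/-- The seven-dimensional case: such an overgroup is monomial or contains every root element. -/
def BaseSeven (F : Type*) [Field F] : Prop :=
  ∀ (c : F) (hc : c ≠ 0) (h2 : (2 : F) ≠ 0) (H : Subgroup (GL (Fin 7) F)),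
    H ≤ Cfsg.isometryGroup F (sumSq (Fin 7) c) → Gens (fun i => (Pi.single i 1 : Fin 7 → F)) H →
    (∀ (v : Fin 7 → F) (hv : sumSq (Fin 7) c v ≠ 0), reflection (frame_sumSq hc h2).nd hv ∉ H) →
    (∀ g ∈ H, Mono (fun i => (Pi.single i 1 : Fin 7 → F)) g) ∨
      ∀ a b, sumSq (Fin 7) c a = 0 → bform (frame_sumSq hc h2).nd a b = 0 → EIn (sumSq (Fin 7) c) H a b

variable {ι : Type} [Fintype ι] [DecidableEq ι] {F : Type*} [Field F] [Finite F]
variable {Q : (ι → F) → F} {c : F} {e : ι → ι → F}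

namespace Frame

variable (hF : Frame Q c e) {H : Subgroup (GL ι F)} (hH : H ≤ Cfsg.isometryGroup F Q) (hG : Gens e H)
  (hn : 9 ≤ Fintype.card ι) (hrefl : ∀ (v : ι → F) (hv : Q v ≠ 0), reflection hF.nd hv ∉ H)
include hF hH hG hn hrefl

/-- Monomial on every seven frame vectors implies monomial. -/
theorem mono_all (h7 : ∀ T : Finset ι, T.card = 7 → ∀ g ∈ H, (∀ k ∉ T, ac g (e k) = e k) → Mono e g)
    {g : GL ι F} (hg : g ∈ H) : Mono e g := by
  let P : ℕ → Prop := fun m => ∀ T : Finset ι, T.card ≤ m → ∀ g ∈ H, (∀ k ∉ T, ac g (e k) = e k) → Mono e g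
  have step : ∀ m, P m → ∀ m', 9 ≤ m' → m' ≤ m + 2 → m' ≤ Fintype.card ι → P m' := by
    intro m hm m' h9 hle hcard T hT g hg hfix
    obtain ⟨T', hsub, -, hT'⟩ := Finset.exists_subsuperset_card_eq (Finset.subset_univ T) hT
      (by rwa [Finset.card_univ] : m' ≤ (univ : Finset ι).card)
    let j : T' → ι := Subtype.val
    have hj : Function.Injective j := Subtype.val_injective
    have hout : ∀ k, (∀ i : T', j i ≠ k) ↔ k ∉ T' := fun k =>
      ⟨fun h hk => h ⟨k, hk⟩ rfl, fun h i hi => h (hi ▸ i.2)⟩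
    have hgf : g ∈ fixOut Q e j := ⟨hH hg, fun k hk => hfix k fun h => (hout k).1 hk (hsub h)⟩
    refine hF.mono_of_res hj (g := ⟨g, hgf⟩) ?_
    refine (frame_sumSq (κ := T') hF.ne hF.two).mono_of_fix_two (hF.sub_le_isometry hj) (hF.sub_gens hj hH hG)
      (by rw [Fintype.card_coe, hT']; exact h9) (hF.sub_noRefl hj hrefl) ?_ ((hF.mem_sub hj).2 ⟨_, hg, rfl⟩)
    intro x hx a b hab ha hb
    obtain ⟨y, hy, rfl⟩ := (hF.mem_sub hj).1 hx
    have hyM : Mono e (y : GL ι F) := by
      refine hm ((T'.erase (j a)).erase (j b)) ?_ _ hy fun k hk => ?_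
      · rw [Finset.card_erase_of_mem (Finset.mem_erase.2 ⟨(hj.ne hab).symm, b.2⟩),
          Finset.card_erase_of_mem a.2, hT']
        omega
      · by_cases h1 : k = j a
        · rw [h1, ← emb_single (e := e) j a, hF.ac_res hj]; exact congrArg _ ha
        by_cases h2 : k = j b
        · rw [h2, ← emb_single (e := e) j b, hF.ac_res hj]; exact congrArg _ hb
        refine y.2.2 k ((hout k).2 fun h => hk ?_)
        simp [h1, h2, h]
    intro i
    obtain ⟨l, hl⟩ := hyM (j i)
    rw [← emb_single (e := e) j i, hF.ac_res hj] at hl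
    have hlT : l ∈ T' := by
      by_contra hlT
      have h0 : bform hF.nd (e l) (emb e j (ac (hF.res hj y) (Pi.single i 1))) = 0 :=
        hF.b_emb_out _ ((hout l).2 hlT)
      rcases hl with hl | hl <;> simp [hl, hF.b_ee, hF.two, hF.ne] at h0
    refine ⟨⟨l, hlT⟩, ?_⟩
    have he : e l = emb e j (Pi.single (⟨l, hlT⟩ : T') 1) := (emb_single (e := e) j ⟨l, hlT⟩).symm
    rw [he, ← map_neg] at hl
    exact hl.imp (fun h => hF.emb_injective hj h) fun h => hF.emb_injective hj h
  have h7' : P 7 := by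
    intro T hT g hg hfix
    obtain ⟨T', hsub, -, hT'⟩ := Finset.exists_subsuperset_card_eq (Finset.subset_univ T) hT
      (by rw [Finset.card_univ]; omega : (7 : ℕ) ≤ (univ : Finset ι).card)
    exact h7 T' hT' g hg fun k hk => hfix k fun h => hk (hsub h)
  have climb : ∀ m, 9 + m ≤ Fintype.card ι → P (9 + m) := by
    intro m
    induction m with
    | zero => exact fun h => step 7 h7' 9 le_rfl le_rfl h
    | succ m ih => exact fun h => step (9 + m) (ih (by omega)) (9 + (m + 1)) (by omega) (by omega) h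
  obtain ⟨m, hm⟩ := Nat.exists_eq_add_of_le hn
  exact climb m hm.ge univ (by rw [Finset.card_univ, hm]) g hg fun k hk => absurd (Finset.mem_univ k) hk

/-- The dichotomy. -/
theorem mono_or_omega_le (hbase : BaseSeven F) : (∀ g ∈ H, Mono e g) ∨ omegaGL Q ≤ H := by
  by_contra hcon
  push Not at hcon
  obtain ⟨⟨g, hg, hgm⟩, hom⟩ := hcon
  refine hgm (hF.mono_all hH hG hn hrefl (fun T hT x hx hfix => ?_) hg)
  let j : Fin 7 → ι := fun i => ((T.equivFin.trans (finCongr hT)).symm i : ι)
  have hj : Function.Injective j := Subtype.val_injective.comp (Equiv.injective _)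
  have himg : univ.image j = T := by
    refine Finset.eq_of_subset_of_card_le (fun k hk => ?_) ?_
    · obtain ⟨i, -, rfl⟩ := Finset.mem_image.1 hk
      exact ((T.equivFin.trans (finCongr hT)).symm i).2
    · rw [Finset.card_image_of_injective _ hj, hT]; simp
  rcases hbase c hF.ne hF.two _ (hF.sub_le_isometry hj) (hF.sub_gens hj hH hG) (hF.sub_noRefl hj hrefl) with h | h
  · have hxf : x ∈ fixOut Q e j := ⟨hH hx, fun k hk => hfix k fun hkT => by
      rw [← himg, Finset.mem_image] at hkT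
      obtain ⟨i, -, rfl⟩ := hkT
      exact hk i rfl⟩
    exact hF.mono_of_res hj (g := ⟨x, hxf⟩) (h _ ((hF.mem_sub hj).2 ⟨_, hx, rfl⟩))
  · refine absurd (hF.omega_le_of_seven hH hG hn hT fun u w hu hw hu0 huw => ?_) hom
    rw [← himg] at hu hw
    obtain ⟨a, ha⟩ := hF.exists_emb hj hu
    obtain ⟨b, hb⟩ := hF.exists_emb hj hw
    refine hF.eIn_of_sub hj ha hb (h a b ?_ ?_)
    · rw [← hF.q_emb hj, ← ha, hu0]
    · rw [← hF.b_emb hj, ← ha, ← hb, huw]

end Frame

end CfsgLib.OrthFrame90
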