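import Cfsg.Agent.OrthFrame90.Short
import Mathlib.Data.Finset.Powerset

/-! If every element fixing two frame vectors is monomial, every element is. -/

set_option autoImplicit false
set_option linter.unusedSectionVars false

namespace CfsgLib.OrthFrame90

open Cfsg Cfsg.Geo Module CfsgLib.OrthGeo Finset
open scoped Matrix MatrixGroups

attribute [-simp] bform_apply

variable {ι : Type} [Fintype ι] [DecidableEq ι] {F : Type*} [Field F] [Finite F]
variable {Q : (ι → F) → F} {c : F} {e : ι → ι → F}

namespace Frame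

section
variable (hF : Frame Q c e)
include hF

/-- Displacements of a signed double transposition. -/
lemma double_sub_mem {dd : GL ι F} {a b a' b' : ι} {s s' : F} (hs : s = 1 ∨ s = -1) (hs' : s' = 1 ∨ s' = -1)
    (da : ac dd (e a) = -(s • e b)) (db : ac dd (e b) = -(s • e a))
    (dc : ac dd (e a') = -(s' • e b')) (dd' : ac dd (e b') = -(s' • e a'))
    (dk : ∀ k, k ∉ [a, b, a', b'] → ac dd (e k) = e k) (x : ι → F) :
    ac dd x - x ∈ Submodule.span F {e a + s • e b, e a' + s' • e b'} := by
  have hss : s * s = 1 := by rcases hs with rfl | rfl <;> ring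
  have hss' : s' * s' = 1 := by rcases hs' with rfl | rfl <;> ring
  refine hF.sub_mem_of_frame (fun l => ?_) x
  rw [Submodule.mem_span_pair]
  by_cases h1 : l = a
  · exact ⟨-1, 0, by rw [h1, da]; module⟩
  by_cases h2 : l = b
  · refine ⟨-s, 0, ?_⟩
    rw [h2, db, smul_add, smul_smul, neg_mul, hss]; module
  by_cases h3 : l = a'
  · exact ⟨0, -1, by rw [h3, dc]; module⟩
  by_cases h4 : l = b'
  · refine ⟨0, -s', ?_⟩
    rw [h4, dd', zero_smul, zero_add, smul_add, smul_smul, neg_mul, hss']; module
  exact ⟨0, 0, by rw [dk l (by simp [h1, h2, h3, h4])]; simp⟩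

end

variable (hF : Frame Q c e) {H : Subgroup (GL ι F)} (hH : H ≤ Cfsg.isometryGroup F Q) (hG : Gens e H)
  (hn : 9 ≤ Fintype.card ι)
  (hrefl : ∀ (v : ι → F) (hv : Q v ≠ 0), reflection hF.nd hv ∉ H)
  (hK : ∀ g ∈ H, ∀ a b : ι, a ≠ b → ac g (e a) = e a → ac g (e b) = e b → Mono e g)
include hF hH hG hn hK

/-- An involution with two coordinate vectors perpendicular to its residual space is monomial. -/
lemma mono_of_small {d' : GL ι F} (hd' : d' ∈ H) {δ δ' : ι → F}
    (hfix : ∀ k, bform hF.nd (e k) δ = 0 → bform hF.nd (e k) δ' = 0 → ac d' (e k) = e k)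
    {A : Finset ι} (hA : A.card + 2 ≤ Fintype.card ι) (h1 : hF.supp δ ⊆ A) (h2 : hF.supp δ' ⊆ A) : Mono e d' := by
  obtain ⟨x, hx⟩ := exists_notMem (S := A) (by omega)
  obtain ⟨y, hy⟩ := exists_notMem (S := insert x A) (by
    have := Finset.card_insert_le x A; omega)
  rw [Finset.mem_insert, not_or] at hy
  exact hK d' hd' x y (Ne.symm hy.1) (hfix x (hF.supp_subset.1 h1 x hx) (hF.supp_subset.1 h2 x hx))
    (hfix y (hF.supp_subset.1 h1 y hy.2) (hF.supp_subset.1 h2 y hy.2))

include hrefl

/-- A double sign change and the conjugate of a double transposition yield a short vector. -/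
theorem pair_good {h : GL ι F} (hh : h ∈ H) {a b a' b' : ι} (hnd : [a, b, a', b'].Nodup) {s s' : F}
    (hs : s = 1 ∨ s = -1) (hs' : s' = 1 ∨ s' = -1) {dd : GL ι F} (hdd : dd ∈ H)
    (da : ac dd (e a) = -(s • e b)) (db : ac dd (e b) = -(s • e a))
    (dc : ac dd (e a') = -(s' • e b')) (dd' : ac dd (e b') = -(s' • e a'))
    (dk : ∀ k, k ∉ [a, b, a', b'] → ac dd (e k) = e k)
    {i j : ι} (hij : i ≠ j) (hnm : ¬ Mono e (h * dd * h⁻¹)) :
    ∃ w δ : ι → F, δ ∈ Submodule.span F {ac h (e a + s • e b), ac h (e a' + s' • e b')} ∧ Short e w ∧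
      bform hF.nd (e i) w = 0 ∧ bform hF.nd (e j) w = 0 ∧
      (∀ k, k ≠ i → k ≠ j → bform hF.nd (e k) δ = bform hF.nd (e k) w) := by
  set d' := h * dd * h⁻¹ with hd'
  have hd'H : d' ∈ H := mul_mem (mul_mem hh hdd) (inv_mem hh)
  obtain ⟨t, ht, ti, tj, tk⟩ := hG.flip i j hij
  set P := Submodule.span F {ac h (e a + s • e b), ac h (e a' + s' • e b')} with hP
  set W := Submodule.span F {e i, e j} ⊔ P with hW
  have hss : s * s = 1 := by rcases hs with rfl | rfl <;> ring
  have hb' : s' * s' = 1 := by rcases hs' with rfl | rfl <;> ring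
  have hddP := hF.double_sub_mem hs hs' da db dc dd' dk
  have hd'W : ∀ x, ac d' x - x ∈ W := by
    intro x
    refine Submodule.mem_sup_right ?_
    obtain ⟨u, v, huv⟩ := Submodule.mem_span_pair.1 (hddP (ac h⁻¹ x))
    have : ac d' x - x = ac h (ac dd (ac h⁻¹ x) - ac h⁻¹ x) := by
      rw [ac_sub, ac_ac_inv, hd', ac_mul, ac_mul]
    rw [this, ← huv, ac_add, ac_smul, ac_smul, hP]
    exact Submodule.mem_span_pair.2 ⟨u, v, rfl⟩
  have htW : ∀ x, ac t x - x ∈ W := by
    intro x
    refine Submodule.mem_sup_left ?_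
    rw [hF.flip_apply (hH ht) hij ti tj tk, Submodule.mem_span_pair]
    exact ⟨-(bform hF.nd (e i) x / c), -(bform hF.nd (e j) x / c), by module⟩
  have htM : Mono e t := mono_flip ti tj tk
  have htt : t * t = 1 := hF.gl_eq fun k => by
    rw [ac_mul, ac_one]
    by_cases h1 : k = i; · rw [h1, ti, ac_neg, ti, neg_neg]
    by_cases h2 : k = j; · rw [h2, tj, ac_neg, tj, neg_neg]
    rw [tk k h1 h2, tk k h1 h2]
  have hdd2 : dd * dd = 1 := hF.gl_eq fun k => by
    rw [ac_mul, ac_one]
    by_cases h1 : k = a; · rw [h1, da, ac_neg, ac_smul, db, smul_neg, neg_neg, smul_smul, hss, one_smul]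
    by_cases h2 : k = b; · rw [h2, db, ac_neg, ac_smul, da, smul_neg, neg_neg, smul_smul, hss, one_smul]
    by_cases h3 : k = a'; · rw [h3, dc, ac_neg, ac_smul, dd', smul_neg, neg_neg, smul_smul, hb', one_smul]
    by_cases h4 : k = b'; · rw [h4, dd', ac_neg, ac_smul, dc, smul_neg, neg_neg, smul_smul, hb', one_smul]
    rw [dk k (by simp [h1, h2, h3, h4]), dk k (by simp [h1, h2, h3, h4])]
  have hdd' : d' * d' = 1 := by
    rw [hd', show h * dd * h⁻¹ * (h * dd * h⁻¹) = h * (dd * dd) * h⁻¹ by group, hdd2, mul_one, mul_inv_cancel]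
  have hnc : d' * t ≠ t * d' := fun hc => hnm (hF.mono_of_commute hH hG hn hK hd'H ht hij ti tj tk hc)
  set y := t * d' with hy
  have hyinv : y⁻¹ = d' * t := by
    rw [hy, mul_inv_rev, inv_eq_of_mul_eq_one_right htt, inv_eq_of_mul_eq_one_right hdd']
  have hyt : t * y = y⁻¹ * t := by
    rw [hyinv, hy, ← mul_assoc, htt, one_mul, mul_assoc, htt, mul_one]
  have hytm : ∀ m : ℕ, t * y ^ m = (y ^ m)⁻¹ * t := fun m => by
    rw [← inv_pow]; exact SemiconjBy.pow_right hyt m
  have hyH : y ∈ H := mul_mem ht hd'H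
  have hyW : ∀ m : ℕ, ∀ x, ac (y ^ m) x - x ∈ W := by
    intro m
    induction m with
    | zero => intro x; simp
    | succ m ih =>
      intro x
      rw [pow_succ, ac_mul]
      have h1 : ac y x - x ∈ W := by
        rw [hy, ac_mul]
        have := Submodule.add_mem _ (htW (ac d' x)) (hd'W x)
        rwa [sub_add_sub_cancel] at this
      have := Submodule.add_mem _ (ih (ac y x)) h1
      rwa [sub_add_sub_cancel] at this
  have hfin : Finite (GL ι F) := inferInstance
  have hord : 0 < orderOf y := orderOf_pos y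
  obtain ⟨m, hm | hm⟩ := Nat.even_or_odd' (orderOf y)
  swap
  · -- odd order: the two involutions are conjugate, impossible
    exfalso
    set q := h⁻¹ * y ^ m with hq
    have hqH : q ∈ H := mul_mem (inv_mem hh) (pow_mem hyH m)
    have h1 : t * (y ^ m)⁻¹ = y ^ m * t := by
      rw [eq_comm, eq_mul_inv_iff_mul_eq, mul_assoc, hytm, mul_inv_cancel_left]
    have h2 : y ^ m * y ^ m = y⁻¹ := by
      rw [eq_inv_iff_mul_eq_one, ← pow_add, ← pow_succ, show m + m + 1 = orderOf y by omega, pow_orderOf_eq_one]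
    have hconj : y ^ m * t * (y ^ m)⁻¹ = d' := by
      rw [mul_assoc, h1, ← mul_assoc, h2, hyinv, mul_assoc, htt, mul_one]
    have hqt : q * t = dd * q := by
      rw [mul_inv_eq_iff_eq_mul] at hconj
      rw [hq, mul_assoc, hconj, hd']
      group
    have hperp : ∀ l, ac t (e l) = -e l → ∀ k, k ∉ [a, b, a', b'] → bform hF.nd (e k) (ac q (e l)) = 0 := by
      intro l hl k hk
      have h3 : ac dd (ac q (e l)) = -ac q (e l) := by rw [← ac_mul, ← hqt, ac_mul, hl, ac_neg]
      have h4 := b_ac hF.nd (hH hdd) (e k) (ac q (e l))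
      rw [dk k hk, h3, map_neg] at h4
      refine (mul_eq_zero.1 (?_ : (2 : F) * bform hF.nd (e k) (ac q (e l)) = 0)).resolve_left hF.two
      linear_combination -h4
    have hcard : ([a, b, a', b'].toFinset).card = 4 := by rw [List.toFinset_card_of_nodup hnd]; rfl
    have hqM : Mono e q := by
      refine hF.mono_of_far hH hG hn hK hqH hij (univ \ [a, b, a', b'].toFinset) (fun k hk => ?_) ?_ ?_
      · rw [Finset.mem_sdiff, List.mem_toFinset] at hk
        exact ⟨hperp i ti k hk.2, hperp j tj k hk.2⟩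
      all_goals rw [Finset.card_univ_sdiff, hcard]; omega
    obtain ⟨l, hl⟩ := hF.mono_inv hqM a
    have hdiag : ac t (e l) = e l ∨ ac t (e l) = -e l := by
      by_cases h3 : l = i; · exact .inr (h3 ▸ ti)
      by_cases h4 : l = j; · exact .inr (h4 ▸ tj)
      exact .inl (tk l h3 h4)
    have hddq : ac dd (e a) = ac q (ac t (ac q⁻¹ (e a))) := by
      rw [← ac_mul q t, hqt, ac_mul, ac_ac_inv]
    have hpm : ac dd (e a) = e a ∨ ac dd (e a) = -e a := by
      rw [hddq]
      have h3 := ac_ac_inv q (e a)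
      rcases hl with hl | hl <;> rw [hl] at h3 ⊢ <;> rcases hdiag with h4 | h4 <;>
        simp only [ac_neg, h4, neg_neg] at h3 ⊢
      · exact .inl h3
      · exact .inr (congrArg Neg.neg h3)
      · exact .inl h3
      · exact .inr (by rw [← h3, neg_neg])
    have hab : a ≠ b := by
      simp only [List.nodup_cons, List.mem_cons, not_or] at hnd
      exact hnd.1.1
    refine hab ?_
    rw [da] at hpm
    rcases hs with rfl | rfl <;> simp only [one_smul, neg_smul, neg_neg] at hpm <;>
      rcases hpm with h3 | h3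
    · exact hF.inj_pm (.inr h3.symm)
    · exact hF.inj (neg_inj.1 h3).symm
    · exact hF.inj h3.symm
    · exact (hF.inj_neg h3).elim
  -- even order
  set z := y ^ m with hz
  have hz1 : z ≠ 1 := pow_ne_one_of_lt_orderOf (by omega) (by omega)
  have hzz : z * z = 1 := by rw [hz, ← pow_add, ← two_mul, ← hm, pow_orderOf_eq_one]
  have hzt : z * t = t * z := by rw [hytm, ← hz, inv_eq_of_mul_eq_one_right hzz]
  have hzH : z ∈ H := pow_mem hyH m
  have hzy : z * y = y * z := (Commute.self_pow y m).symm.eq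
  have hd'y : d' = t * y := by rw [hy, ← mul_assoc, htt, one_mul]
  have hzd : z * d' = d' * z := by
    rw [hd'y]; exact Commute.mul_right (show Commute z t from hzt) (show Commute z y from hzy)
  have hzM : Mono e z := hF.mono_of_commute hH hG hn hK hzH ht hij ti tj tk hzt
  by_cases hmove : ∃ k, k ≠ i ∧ k ≠ j ∧ ac z (e k) ≠ e k
  · obtain ⟨k, hki, hkj, hk⟩ := hmove
    obtain ⟨hwS, -⟩ := hF.short_displacement hzM hk
    obtain ⟨u, hu, δ, hδ, huv⟩ := Submodule.mem_sup.1 (hyW m (e k))
    set w := ac z (e k) - e k with hw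
    have hwt : ac t w = w := by
      rw [hw, ac_sub, ← ac_mul, ← hzt, ac_mul, tk k hki hkj]
    have horth : ∀ l, ac t (e l) = -e l → bform hF.nd (e l) w = 0 := by
      intro l hl
      have h1 := b_ac hF.nd (hH ht) (e l) w
      rw [hl, hwt, map_neg, LinearMap.neg_apply] at h1
      refine (mul_eq_zero.1 (?_ : (2 : F) * bform hF.nd (e l) w = 0)).resolve_left hF.two
      linear_combination -h1
    refine ⟨w, δ, hδ, hwS, horth i ti, horth j tj, fun l hli hlj => ?_⟩
    obtain ⟨p, r, rfl⟩ := Submodule.mem_span_pair.1 hu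
    rw [← huv, map_add, map_add, map_smul, map_smul, hF.b_ne hli, hF.b_ne hlj, smul_zero, smul_zero,
      zero_add, zero_add]
  push Not at hmove
  exfalso
  -- the central involution lives on the pair
  have hzI := hH hzH
  obtain ⟨σ, hσ⟩ := hF.mono_perm hzM
  have hσfix : ∀ k, k ≠ i → k ≠ j → σ k = k := fun k hki hkj =>
    hF.inj_pm (by
      rcases hσ k with h1 | h1 <;> rw [hmove k hki hkj] at h1
      · exact .inl h1.symm
      · exact .inr (by rw [h1, neg_neg]))
  have hzr : ∀ {v : ι → F} (hv : Q v ≠ 0), z ≠ reflection hF.nd hv := fun hv h1 => hrefl _ hv (h1 ▸ hzH)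
  by_cases hσi : σ i = i
  · have hσj : σ j = j := by
      by_contra hne
      by_cases h1 : σ j = i
      · exact hij (σ.injective (hσi.trans h1.symm))
      · exact hne (σ.injective (hσfix _ h1 hne))
    have reflect : ∀ u v, u ≠ v → (u = i ∧ v = j ∨ u = j ∧ v = i) → ac z (e u) = -e u → ac z (e v) = e v → False := by
      intro u v huv huv' hu hv
      refine hzr (v := e u) (by rw [hF.norm]; exact hF.ne) (hF.gl_eq fun k => ?_)
      rw [ac, ac, reflection_mulVec hF.nd, hF.norm]
      by_cases h1 : k = u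
      · rw [h1, hF.b_ee, show c⁻¹ * (2 * c) = 2 by field_simp [hF.ne]]
        exact hu.trans (by module)
      · rw [hF.b_ne (Ne.symm h1), mul_zero, zero_smul, sub_zero]
        by_cases h2 : k = v
        · exact h2 ▸ hv
        · refine hmove k ?_ ?_ <;> rcases huv' with ⟨rfl, rfl⟩ | ⟨rfl, rfl⟩ <;> assumption
    rcases hσ i with hi | hi <;> rcases hσ j with hj | hj <;> rw [hσi] at hi <;> rw [hσj] at hj
    · apply hz1
      refine hF.gl_eq fun k => ?_
      rw [ac_one]
      by_cases h1 : k = i; · rw [h1, hi]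
      by_cases h2 : k = j; · rw [h2, hj]
      exact hmove k h1 h2
    · exact reflect j i (Ne.symm hij) (.inr ⟨rfl, rfl⟩) hj hi
    · exact reflect i j hij (.inl ⟨rfl, rfl⟩) hi hj
    · apply hnc
      have : z = t := hF.gl_eq fun k => by
        by_cases h1 : k = i; · rw [h1, hi, ti]
        by_cases h2 : k = j; · rw [h2, hj, tj]
        rw [hmove k h1 h2, tk k h1 h2]
      have h2 := hzd.symm
      rwa [this] at h2
  · have h1 : σ i = j := by
      by_contra hne
      exact hσi (σ.injective (hσfix _ hσi hne))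
    obtain ⟨r, hr, hi⟩ : ∃ r : F, r * r = 1 ∧ ac z (e i) = r • e j := by
      rcases hσ i with hi | hi <;> rw [h1] at hi
      · exact ⟨1, by ring, by rw [hi, one_smul]⟩
      · exact ⟨-1, by ring, by rw [hi, neg_one_smul]⟩
    have hj : ac z (e j) = r • e i := by
      have h2 : ac z (ac z (e i)) = e i := by rw [← ac_mul, hzz, ac_one]
      rw [hi, ac_smul] at h2
      calc ac z (e j) = (r * r) • ac z (e j) := by rw [hr, one_smul]
        _ = r • e i := by rw [← smul_smul, h2]
    have hq : Q (e i - r • e j) = 2 * c := by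
      rw [q_sub hF.nd, q_smul hF.nd, hF.norm, hF.norm, map_smul, hF.b_ne hij, smul_zero, sq, hr]; ring
    refine hzr (v := e i - r • e j) (by rw [hq]; exact hF.two_c_ne) (hF.gl_eq fun k => ?_)
    rw [ac, ac, reflection_mulVec hF.nd, hq, map_sub, map_smul, LinearMap.sub_apply, LinearMap.smul_apply,
      smul_eq_mul]
    have h2c := hF.two_c_ne
    by_cases h3 : k = i
    · rw [h3, hF.b_ee, hF.b_ne (Ne.symm hij), mul_zero, sub_zero, inv_mul_cancel₀ h2c, one_smul, sub_sub_cancel]
      exact hi
    by_cases h4 : k = j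
    · rw [h4, hF.b_ee, hF.b_ne hij, zero_sub]
      refine hj.trans ?_
      rw [show (2 * c)⁻¹ * -(r * (2 * c)) = -r by rw [mul_neg, mul_comm r, ← mul_assoc, inv_mul_cancel₀ h2c, one_mul], neg_smul, sub_neg_eq_add, smul_sub, smul_smul, hr,
        one_smul, add_sub_cancel]
    · rw [hF.b_ne (Ne.symm h3), hF.b_ne (Ne.symm h4), mul_zero, sub_zero, mul_zero, zero_smul, sub_zero]
      exact hmove k h3 h4

/-- A signed double transposition conjugated by any element leaves a short vector in its residual space. -/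
theorem exists_short {h : GL ι F} (hh : h ∈ H) {a b a' b' : ι} (hnd : [a, b, a', b'].Nodup) {s s' : F}
    (hs : s = 1 ∨ s = -1) (hs' : s' = 1 ∨ s' = -1) :
    ∃ v ∈ Submodule.span F {ac h (e a + s • e b), ac h (e a' + s' • e b')}, Short e v := by
  obtain ⟨dd, hdd, da, db, dc, dd', dk⟩ := hG.double a b a' b' s s' hnd hs hs'
  set P := Submodule.span F {ac h (e a + s • e b), ac h (e a' + s' • e b')} with hP
  set d' := h * dd * h⁻¹ with hd'
  have hd'H : d' ∈ H := mul_mem (mul_mem hh hdd) (inv_mem hh)
  set f := ac h (e a + s • e b) with hf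
  set f' := ac h (e a' + s' • e b') with hf'
  have hfix : ∀ k, bform hF.nd (e k) f = 0 → bform hF.nd (e k) f' = 0 → ac d' (e k) = e k := by
    intro k h1 h2
    rw [b_symm hF.nd, hf, b_ac_left hF.nd (hH hh), map_add, map_smul, LinearMap.add_apply,
      LinearMap.smul_apply, smul_eq_mul] at h1
    rw [b_symm hF.nd, hf', b_ac_left hF.nd (hH hh), map_add, map_smul, LinearMap.add_apply,
      LinearMap.smul_apply, smul_eq_mul] at h2
    have hddI := hH hdd
    set x := ac h⁻¹ (e k) with hx
    have hddx : ac dd x = x := by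
      refine hF.ext fun l => ?_
      have h3 := b_ac hF.nd hddI (e l) x
      have hss : s * s = 1 := by rcases hs with rfl | rfl <;> ring
      have hss' : s' * s' = 1 := by rcases hs' with rfl | rfl <;> ring
      by_cases e1 : l = a
      · subst e1
        have h4 := b_ac hF.nd hddI (e b) x
        rw [db, map_neg, LinearMap.neg_apply, map_smul, LinearMap.smul_apply, smul_eq_mul] at h4
        linear_combination (-s) * h4 - h1 - (bform hF.nd (e l) (ac dd x)) * hss
      by_cases e2 : l = b
      · subst e2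
        have h4 := b_ac hF.nd hddI (e a) x
        rw [da, map_neg, LinearMap.neg_apply, map_smul, LinearMap.smul_apply, smul_eq_mul] at h4
        linear_combination (-s) * h4 - s * h1 + (bform hF.nd (e l) x - bform hF.nd (e l) (ac dd x)) * hss
      by_cases e3 : l = a'
      · subst e3
        have h4 := b_ac hF.nd hddI (e b') x
        rw [dd', map_neg, LinearMap.neg_apply, map_smul, LinearMap.smul_apply, smul_eq_mul] at h4
        linear_combination (-s') * h4 - h2 - (bform hF.nd (e l) (ac dd x)) * hss'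
      by_cases e4 : l = b'
      · subst e4
        have h4 := b_ac hF.nd hddI (e a') x
        rw [dc, map_neg, LinearMap.neg_apply, map_smul, LinearMap.smul_apply, smul_eq_mul] at h4
        linear_combination (-s') * h4 - s' * h2 + (bform hF.nd (e l) x - bform hF.nd (e l) (ac dd x)) * hss'
      rwa [dk l (by simp [e1, e2, e3, e4])] at h3
    rw [hd', ac_mul, ac_mul, ← hx, hddx, hx, ac_ac_inv]
  have hdP : ∀ k, ac d' (e k) - e k ∈ P := by
    intro k
    have hdd0 := hF.double_sub_mem hs hs' da db dc dd' dk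
    obtain ⟨u, v, huv⟩ := Submodule.mem_span_pair.1 (hdd0 (ac h⁻¹ (e k)))
    have : ac d' (e k) - e k = ac h (ac dd (ac h⁻¹ (e k)) - ac h⁻¹ (e k)) := by
      rw [ac_sub, ac_ac_inv, hd', ac_mul, ac_mul]
    rw [this, ← huv, ac_add, ac_smul, ac_smul, hP]
    exact Submodule.mem_span_pair.2 ⟨u, v, rfl⟩
  by_cases hm : Mono e d'
  · obtain ⟨k, hk⟩ : ∃ k, ac d' (e k) ≠ e k := by
      by_contra hcon
      push Not at hcon
      have h1 : d' = 1 := hF.gl_eq fun k => by rw [ac_one]; exact hcon k
      rw [hd', conj_eq_one_iff] at h1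
      rw [h1, ac_one] at da
      have hab : a ≠ b := by
        simp only [List.nodup_cons, List.mem_cons, not_or] at hnd
        exact hnd.1.1
      rcases hs with rfl | rfl
      · exact hab (hF.inj_pm (.inr (by simpa using da)))
      · exact hab (hF.inj (by simpa using da))
    exact ⟨_, hdP k, (hF.short_displacement hm hk).1⟩
  by_contra hns
  push Not at hns
  have small : ∀ {A : Finset ι} {δ δ' : ι → F}, δ ∈ P → δ' ∈ P → hF.supp δ ⊆ A → hF.supp δ' ⊆ A →
      A.card + 2 ≤ Fintype.card ι → δ ≠ 0 → (∀ r : F, δ' ≠ r • δ) → False := by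
    intro A δ δ' hδ hδ' h1 h2 hA h0 hne
    obtain ⟨u, v, huv⟩ := Submodule.mem_span_pair.1 hδ
    obtain ⟨u', v', huv'⟩ := Submodule.mem_span_pair.1 hδ'
    set D := u * v' - u' * v with hD
    have hD0 : D ≠ 0 := by
      intro hD0
      rw [hD, sub_eq_zero] at hD0
      by_cases hu : u = 0
      · have hv : v ≠ 0 := fun hv => h0 (by rw [← huv, hu, hv]; simp)
        have hu' : u' = 0 := by
          rw [hu, zero_mul] at hD0
          exact (mul_eq_zero.1 hD0.symm).resolve_right hv
        refine hne (v' / v) ?_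
        rw [← huv, ← huv', hu, hu', smul_add, smul_smul, smul_smul, div_mul_cancel₀ _ hv, mul_zero]
      · refine hne (u' / u) ?_
        rw [← huv, ← huv', smul_add, smul_smul, smul_smul, div_mul_cancel₀ _ hu,
          show u' / u * v = v' by field_simp; linear_combination -hD0]
    refine hm (hF.mono_of_small hH hG hn hK hd'H (δ := δ) (δ' := δ') (fun k e1 e2 => hfix k ?_ ?_) hA h1 h2)
    · refine (mul_eq_zero.1 (?_ : D * bform hF.nd (e k) f = 0)).resolve_left hD0
      rw [← huv, map_add, map_smul, map_smul, smul_eq_mul, smul_eq_mul] at e1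
      rw [← huv', map_add, map_smul, map_smul, smul_eq_mul, smul_eq_mul] at e2
      linear_combination v' * e1 - v * e2
    · refine (mul_eq_zero.1 (?_ : D * bform hF.nd (e k) f' = 0)).resolve_left hD0
      rw [← huv, map_add, map_smul, map_smul, smul_eq_mul, smul_eq_mul] at e1
      rw [← huv', map_add, map_smul, map_smul, smul_eq_mul, smul_eq_mul] at e2
      linear_combination u * e2 - u' * e1
  have good := fun {i j : ι} (hij : i ≠ j) =>
    hF.pair_good hH hG hn hrefl hK hh hnd hs hs' hdd da db dc dd' dk (i := i) (j := j) hij hm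
  have supp4 : ∀ {i j : ι} {w δ : ι → F}, Short e w →
      (∀ k, k ≠ i → k ≠ j → bform hF.nd (e k) δ = bform hF.nd (e k) w) →
      hF.supp δ ⊆ {i, j} ∪ hF.supp w := by
    intro i j w δ _ hrest
    rw [hF.supp_subset]
    intro k hk
    simp only [Finset.mem_union, Finset.mem_insert, Finset.mem_singleton, not_or] at hk
    rw [hrest k hk.1.1 hk.1.2]
    exact hF.not_mem_supp.1 hk.2
  have nonzero : ∀ {i j : ι} {w δ : ι → F}, Short e w → bform hF.nd (e i) w = 0 → bform hF.nd (e j) w = 0 →
      (∀ k, k ≠ i → k ≠ j → bform hF.nd (e k) δ = bform hF.nd (e k) w) → δ ≠ 0 := by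
    rintro i j w δ ⟨p, r, hr, rfl⟩ hi hj hrest rfl
    have h0 : r • shortVec e p = 0 := by
      refine hF.ext fun k => ?_
      rw [map_zero]
      by_cases h1 : k = i; · rw [h1]; exact hi
      by_cases h2 : k = j; · rw [h2]; exact hj
      rw [← hrest k h1 h2, map_zero]
    obtain ⟨k, l⟩ := p
    have h2c := hF.two_c_ne
    have h1 := congrArg (bform hF.nd (e k)) h0
    rw [map_smul, map_zero, smul_eq_mul, shortVec] at h1
    simp only at h1
    split_ifs at h1 with e1 e2
    · rw [hF.b_ee] at h1; exact h2c ((mul_eq_zero.1 h1).resolve_left hr)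
    · rw [map_add, hF.b_ee, hF.b_ne e1, add_zero] at h1; exact h2c ((mul_eq_zero.1 h1).resolve_left hr)
    · rw [map_sub, hF.b_ee, hF.b_ne e1, sub_zero] at h1; exact h2c ((mul_eq_zero.1 h1).resolve_left hr)
  have hab0 : a ≠ b := by
    simp only [List.nodup_cons, List.mem_cons, not_or] at hnd
    exact hnd.1.1
  obtain ⟨w₀, δ₀, hδ₀, hw₀, w0i, w0j, hrest₀⟩ := good hab0
  set A := hF.supp δ₀ with hA
  have hA4 : A.card ≤ 4 := by
    refine (Finset.card_le_card (supp4 hw₀ hrest₀)).trans ((Finset.card_union_le _ _).trans ?_)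
    have := hF.supp_card hw₀
    have := Finset.card_le_two (a := a) (b := b)
    omega
  have hδ0 := nonzero hw₀ w0i w0j hrest₀
  -- a second pair, with a bound on the union
  have finish : ∀ i j, i ≠ j → (A ∪ {i, j}).card + 4 ≤ Fintype.card ι →
      ((A \ {i, j}).card ≤ 2 → i ∉ A ∧ j ∉ A) → False := by
    intro i j hij hcard hout
    obtain ⟨w, δ, hδ, hw, wi, wj, hrest⟩ := good hij
    by_cases hdep : ∃ r : F, δ = r • δ₀
    · obtain ⟨r, rfl⟩ := hdep
      have hr : r ≠ 0 := fun h => nonzero hw wi wj hrest (by rw [h, zero_smul])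
      have hsub : A \ {i, j} ⊆ hF.supp w := by
        intro k hk
        rw [Finset.mem_sdiff, Finset.mem_insert, Finset.mem_singleton, not_or] at hk
        rw [hF.mem_supp, ← hrest k hk.2.1 hk.2.2, map_smul, smul_eq_mul]
        exact mul_ne_zero hr (hF.mem_supp.1 hk.1)
      obtain ⟨hi, hj⟩ := hout ((Finset.card_le_card hsub).trans (hF.supp_card hw))
      refine hns (r • δ₀) hδ ?_
      convert hw using 1
      refine hF.ext fun k => ?_
      by_cases h1 : k = i
      · rw [h1, map_smul, hF.not_mem_supp.1 hi, smul_zero, wi]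
      by_cases h2 : k = j
      · rw [h2, map_smul, hF.not_mem_supp.1 hj, smul_zero, wj]
      exact hrest k h1 h2
    push Not at hdep
    refine small (A := A ∪ {i, j} ∪ hF.supp w) hδ₀ hδ ?_ ?_ ?_ hδ0 hdep
    · exact Finset.subset_union_left.trans Finset.subset_union_left
    · exact (supp4 hw hrest).trans (Finset.union_subset_union Finset.subset_union_right le_rfl)
    · have := Finset.card_union_le (A ∪ {i, j}) (hF.supp w)
      have := hF.supp_card hw
      omega
  by_cases hA3 : A.card ≤ 3
  · obtain ⟨i, hi⟩ := exists_notMem (S := A) (by omega)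
    obtain ⟨j, hj⟩ := exists_notMem (S := insert i A) (by have := Finset.card_insert_le i A; omega)
    rw [Finset.mem_insert, not_or] at hj
    refine finish i j (Ne.symm hj.1) ?_ (fun _ => ⟨hi, hj.2⟩)
    have := Finset.card_union_le A {i, j}
    have := Finset.card_le_two (a := i) (b := j)
    omega
  · obtain ⟨i, hi⟩ := Finset.card_pos.1 (show 0 < A.card by omega)
    obtain ⟨j, hj⟩ := exists_notMem (S := A) (by omega)
    refine finish i j (fun h => hj (h ▸ hi)) ?_ (fun h2 => ?_)
    · have : A ∪ {i, j} = insert j A := by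
        ext k; simp only [Finset.mem_union, Finset.mem_insert, Finset.mem_singleton]
        constructor
        · rintro (h | rfl | rfl)
          exacts [.inr h, .inr hi, .inl rfl]
        · rintro (rfl | h)
          exacts [.inr (.inr rfl), .inl h]
      rw [this, Finset.card_insert_of_notMem hj]; omega
    · exfalso
      have : A \ {i, j} = A.erase i := by
        ext k; simp only [Finset.mem_sdiff, Finset.mem_insert, Finset.mem_singleton, Finset.mem_erase]
        constructor
        · rintro ⟨h1, h2⟩; exact ⟨fun h => h2 (.inl h), h1⟩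
        · rintro ⟨h1, h2⟩; exact ⟨h2, fun h => h.elim h1 fun h => hj (h ▸ h2)⟩
      rw [this, Finset.card_erase_of_mem hi] at h2
      omega

/-- The reduction: monomial pair stabilisers force a monomial group. -/
theorem mono_of_fix_two {g : GL ι F} (hg : g ∈ H) : Mono e g := by
  by_contra hgm
  -- one sign on every pair is not carried to a short vector
  have sign : ∀ a b : ι, a ≠ b → ∃ s : F, (s = 1 ∨ s = -1) ∧ ¬ Short e (ac g (e a + s • e b)) := by
    intro a b hab
    by_contra hcon
    push Not at hcon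
    have h1 := hcon 1 (.inl rfl)
    have h2 := hcon (-1) (.inr rfl)
    rw [one_smul] at h1
    rw [neg_one_smul, ← sub_eq_add_neg] at h2
    set S := hF.supp (ac g (e a + e b)) ∪ hF.supp (ac g (e a - e b)) with hS
    have hS4 : S.card ≤ 4 := by
      have := hF.supp_card h1
      have := hF.supp_card h2
      have := Finset.card_union_le (hF.supp (ac g (e a + e b))) (hF.supp (ac g (e a - e b)))
      rw [← hS] at this
      omega
    refine hgm (hF.mono_of_far hH hG hn hK hg hab (univ \ S) (fun k hk => ?_) ?_ ?_)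
    · rw [Finset.mem_sdiff, hS, Finset.mem_union, not_or, hF.not_mem_supp, hF.not_mem_supp] at hk
      obtain ⟨-, h3, h4⟩ := hk
      rw [ac_add, map_add] at h3
      rw [ac_sub, map_sub] at h4
      constructor <;> refine (mul_eq_zero.1 (?_ : (2 : F) * _ = 0)).resolve_left hF.two
      · linear_combination h3 + h4
      · linear_combination h3 - h4
    all_goals rw [Finset.card_univ_sdiff]; omega
  choose sg hsg using sign
  -- every four-set is the support of the preimage of a short vector
  have cover : ∀ S ∈ (univ : Finset ι).powersetCard 4, ∃ p : ι × ι,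
      hF.supp (ac g⁻¹ (shortVec e p)) = S := by
    intro S hS
    rw [Finset.mem_powersetCard] at hS
    obtain ⟨a, ha⟩ := Finset.card_pos.1 (show 0 < S.card by omega)
    obtain ⟨b, b', a', h1, h2, h3, hS'⟩ := Finset.card_eq_three.1
      (show (S.erase a).card = 3 by rw [Finset.card_erase_of_mem ha, hS.2])
    have hne : ∀ {x}, x ∈ S.erase a → a ≠ x := fun hx => (Finset.ne_of_mem_erase hx).symm
    have hab : a ≠ b := hne (by rw [hS']; simp)
    have hab' : a ≠ b' := hne (by rw [hS']; simp)
    have haa' : a ≠ a' := hne (by rw [hS']; simp)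
    have hnd : [a, b, a', b'].Nodup := by
      simp [hab, hab', haa', h1, h2, Ne.symm h3]
    obtain ⟨v, hv, p, r, hr, rfl⟩ :=
      hF.exists_short hH hG hn hrefl hK hg hnd (hsg a b hab).1 (hsg a' b' (Ne.symm h3)).1
    obtain ⟨u, u', huv⟩ := Submodule.mem_span_pair.1 hv
    have hr' : r • shortVec e p ≠ 0 := by
      intro h0
      have hk : hF.supp (shortVec e p) = ∅ := hF.supp_eq_empty.2 ((smul_eq_zero.1 h0).resolve_left hr)
      obtain ⟨k, l⟩ := p
      rw [Finset.eq_empty_iff_forall_notMem] at hk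
      apply hk k
      rw [hF.mem_supp, shortVec]
      simp only
      split_ifs with e1 e2
      · rw [hF.b_ee]; exact hF.two_c_ne
      · rw [map_add, hF.b_ee, hF.b_ne e1, add_zero]; exact hF.two_c_ne
      · rw [map_sub, hF.b_ee, hF.b_ne e1, sub_zero]; exact hF.two_c_ne
    have hu : u ≠ 0 := by
      rintro rfl
      rw [zero_smul, zero_add] at huv
      have hu' : u' ≠ 0 := fun h => hr' (by rw [← huv, h, zero_smul])
      refine (hsg a' b' (Ne.symm h3)).2 ?_
      rw [← inv_smul_smul₀ hu' (ac g (e a' + _ • e b')), huv]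
      exact Short.smul ⟨p, r, hr, rfl⟩ (inv_ne_zero hu')
    have hu' : u' ≠ 0 := by
      rintro rfl
      rw [zero_smul, add_zero] at huv
      refine (hsg a b hab).2 ?_
      rw [← inv_smul_smul₀ hu (ac g (e a + _ • e b)), huv]
      exact Short.smul ⟨p, r, hr, rfl⟩ (inv_ne_zero hu)
    refine ⟨p, ?_⟩
    rw [← hF.supp_smul hr (ac g⁻¹ (shortVec e p)), ← ac_smul, ← huv, ac_add, ac_smul, ac_smul, ac_inv_ac, ac_inv_ac]
    have hpair : ∀ x y : ι, x ≠ y → ∀ s : F, (s = 1 ∨ s = -1) → hF.supp (e x + s • e y) = {x, y} := by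
      intro x y hxy s hs
      have hs0 : s ≠ 0 := by rcases hs with rfl | rfl <;> simp
      rw [hF.supp_add_of_disjoint (by rw [hF.supp_smul hs0, hF.supp_e, hF.supp_e]; simpa using hxy),
        hF.supp_smul hs0, hF.supp_e, hF.supp_e]
      rfl
    have e1 := hpair a b hab _ (hsg a b hab).1
    have e2 := hpair a' b' (Ne.symm h3) _ (hsg a' b' (Ne.symm h3)).1
    rw [hF.supp_add_of_disjoint (by
        rw [hF.supp_smul hu, hF.supp_smul hu', e1, e2]
        simp [Ne.symm hab', Ne.symm haa', Ne.symm h1, Ne.symm h2]),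
      hF.supp_smul hu, hF.supp_smul hu', e1, e2]
    rw [← Finset.insert_erase ha, hS']
    ext k; simp only [Finset.mem_union, Finset.mem_insert, Finset.mem_singleton]; tauto
  choose p hp using cover
  have hcard : ((univ : Finset ι).powersetCard 4).card ≤ (univ : Finset (ι × ι)).card := by
    refine Finset.card_le_card_of_injective (f := fun S : ((univ : Finset ι).powersetCard 4) => ⟨p S S.2, Finset.mem_univ _⟩) ?_
    intro S T h
    refine Subtype.ext ?_
    rw [← hp S S.2, ← hp T T.2]
    exact congrArg (fun q => hF.supp (ac g⁻¹ (shortVec e q))) (Subtype.ext_iff.1 h)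
  rw [Finset.card_powersetCard, Finset.card_univ, Finset.card_univ, Fintype.card_prod] at hcard
  have := sq_lt_choose_four hn
  rw [sq] at this
  omega

end Frame

end CfsgLib.OrthFrame90
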