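import Cfsg.Agent.OrthFrame90.Frame

/-! The monomial elements available in an overgroup, and the reduction to two frame vectors. -/

set_option autoImplicit false
set_option linter.unusedSectionVars false

namespace CfsgLib.OrthFrame90

open Cfsg Cfsg.Geo Module CfsgLib.OrthGeo Finset
open scoped Matrix MatrixGroups

attribute [-simp] bform_apply

variable {ι : Type} [Fintype ι] [DecidableEq ι] {F : Type*} [Field F]
variable {Q : (ι → F) → F} {c : F} {e : ι → ι → F}

/-- Double sign changes, three-cycles and signed double transpositions of the frame lie in the group. -/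
structure Gens (e : ι → ι → F) (H : Subgroup (GL ι F)) : Prop where
  flip : ∀ a b, a ≠ b → ∃ g ∈ H, ac g (e a) = -e a ∧ ac g (e b) = -e b ∧
    ∀ k, k ≠ a → k ≠ b → ac g (e k) = e k
  three : ∀ a b d, a ≠ b → b ≠ d → a ≠ d → ∃ g ∈ H, ac g (e a) = e b ∧ ac g (e b) = e d ∧
    ac g (e d) = e a ∧ ∀ k, k ≠ a → k ≠ b → k ≠ d → ac g (e k) = e k
  double : ∀ (a b a' b' : ι) (s s' : F), [a, b, a', b'].Nodup → (s = 1 ∨ s = -1) → (s' = 1 ∨ s' = -1) →
    ∃ g ∈ H, ac g (e a) = -(s • e b) ∧ ac g (e b) = -(s • e a) ∧ ac g (e a') = -(s' • e b') ∧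
      ac g (e b') = -(s' • e a') ∧ ∀ k, k ∉ [a, b, a', b'] → ac g (e k) = e k

lemma mono_of_pm {g : GL ι F} {σ : ι → ι} (h : ∀ i, ac g (e i) = e (σ i) ∨ ac g (e i) = -e (σ i)) :
    Mono e g := fun i => ⟨σ i, h i⟩

lemma mono_flip {g : GL ι F} {a b : ι} (ha : ac g (e a) = -e a) (hb : ac g (e b) = -e b)
    (hk : ∀ k, k ≠ a → k ≠ b → ac g (e k) = e k) : Mono e g := by
  intro k
  by_cases h : k = a; · exact ⟨k, .inr (h ▸ ha)⟩
  by_cases h' : k = b; · exact ⟨k, .inr (h' ▸ hb)⟩
  exact ⟨k, .inl (hk k h h')⟩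

lemma mono_three {g : GL ι F} {a b d : ι} (ha : ac g (e a) = e b) (hb : ac g (e b) = e d)
    (hd : ac g (e d) = e a) (hk : ∀ k, k ≠ a → k ≠ b → k ≠ d → ac g (e k) = e k) : Mono e g := by
  intro k
  by_cases h : k = a; · exact ⟨b, .inl (h ▸ ha)⟩
  by_cases h' : k = b; · exact ⟨d, .inl (h' ▸ hb)⟩
  by_cases h'' : k = d; · exact ⟨a, .inl (h'' ▸ hd)⟩
  exact ⟨k, .inl (hk k h h' h'')⟩

lemma exists_notMem {S : Finset ι} (h : S.card < Fintype.card ι) : ∃ x, x ∉ S := by
  by_contra hc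
  push Not at hc
  rw [Finset.eq_univ_of_forall hc, Finset.card_univ] at h
  exact lt_irrefl _ h

namespace Frame

variable (hF : Frame Q c e)
include hF

/-- An element fixes every vector whose support avoids the moved frame vectors. -/
lemma fix_of_supp {g : GL ι F} {S : Finset ι} (hk : ∀ k ∉ S, ac g (e k) = e k) {y : ι → F}
    (hy : ∀ k ∈ S, bform hF.nd (e k) y = 0) : ac g y = y := by
  conv_lhs => rw [hF.expand y]
  conv_rhs => rw [hF.expand y]
  simp only [ac, Matrix.mulVec_sum, Matrix.mulVec_smul]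
  refine Finset.sum_congr rfl fun k _ => ?_
  by_cases h : k ∈ S
  · rw [hy k h, zero_div, zero_smul, zero_smul]
  · exact congrArg _ (hk k h)

/-- Displacements lie in any subspace containing those of the frame vectors. -/
lemma sub_mem_of_frame {g : GL ι F} {P : Submodule F (ι → F)} (hk : ∀ k, ac g (e k) - e k ∈ P) (x : ι → F) :
    ac g x - x ∈ P := by
  obtain ⟨a, rfl⟩ : ∃ a : ι → F, x = ∑ k, a k • e k := ⟨_, hF.expand x⟩
  simp only [ac, Matrix.mulVec_sum, Matrix.mulVec_smul, ← Finset.sum_sub_distrib, ← smul_sub]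
  exact Submodule.sum_mem _ fun k _ => Submodule.smul_mem _ _ (hk k)

/-- The formula of a double sign change. -/
lemma flip_apply {g : GL ι F} (hg : g ∈ Cfsg.isometryGroup F Q) {a b : ι} (hab : a ≠ b)
    (ha : ac g (e a) = -e a) (hb : ac g (e b) = -e b) (hk : ∀ k, k ≠ a → k ≠ b → ac g (e k) = e k)
    (x : ι → F) :
    ac g x = x - (bform hF.nd (e a) x / c) • e a - (bform hF.nd (e b) x / c) • e b := by
  refine hF.ext fun k => ?_
  have h1 := b_ac hF.nd hg (e k) x
  simp only [map_sub, map_smul, smul_eq_mul]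
  have hc := hF.ne
  by_cases h : k = a
  · subst h
    rw [ha, map_neg, LinearMap.neg_apply] at h1
    rw [hF.b_ee, hF.b_ne hab, mul_zero, sub_zero, neg_eq_iff_eq_neg.1 h1]
    field_simp; ring
  by_cases h' : k = b
  · subst h'
    rw [hb, map_neg, LinearMap.neg_apply] at h1
    rw [hF.b_ee, hF.b_ne h, mul_zero, sub_zero, neg_eq_iff_eq_neg.1 h1]
    field_simp; ring
  · rw [hk k h h'] at h1
    rw [h1, hF.b_ne h, hF.b_ne h', mul_zero, mul_zero, sub_zero, sub_zero]

variable {H : Subgroup (GL ι F)} (hH : H ≤ Cfsg.isometryGroup F Q) (hG : Gens e H)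
  (hn : 9 ≤ Fintype.card ι)
  (hK : ∀ g ∈ H, ∀ a b : ι, a ≠ b → ac g (e a) = e a → ac g (e b) = e b → Mono e g)

include hG hn hK in
/-- An element mapping two frame vectors to frame vectors up to sign is monomial. -/
theorem mono_of_two {g : GL ι F} (hg : g ∈ H) {a b a' b' : ι} (hab : a ≠ b)
    (ha : ac g (e a) = e a' ∨ ac g (e a) = -e a') (hb : ac g (e b) = e b' ∨ ac g (e b) = -e b') :
    Mono e g := by
  -- move the first image back
  obtain ⟨m, hmH, hmM, hma⟩ : ∃ m ∈ H, Mono e m ∧ ac m (e a') = e a := by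
    by_cases h : a' = a
    · exact ⟨1, one_mem _, fun i => ⟨i, .inl (ac_one _)⟩, by rw [ac_one, h]⟩
    · obtain ⟨x, hx⟩ := exists_notMem (S := ({a', a} : Finset ι)) (by
        have := Finset.card_le_two (a := a') (b := a); omega)
      simp only [Finset.mem_insert, Finset.mem_singleton, not_or] at hx
      obtain ⟨m, hm, h1, h2, h3, h4⟩ := hG.three a' a x h (Ne.symm hx.2) (Ne.symm hx.1)
      exact ⟨m, hm, mono_three h1 h2 h3 h4, h1⟩
  have ha1 : ac (m * g) (e a) = e a ∨ ac (m * g) (e a) = -e a := by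
    rw [ac_mul]; rcases ha with h | h <;> simp [h, ac_neg, hma]
  obtain ⟨b'', hb''⟩ := hmM b'
  have hb1 : ac (m * g) (e b) = e b'' ∨ ac (m * g) (e b) = -e b'' := by
    rw [ac_mul]; rcases hb with h | h <;> rcases hb'' with h' | h' <;> simp [h, h', ac_neg]
  have hne : b'' ≠ a := by
    intro h
    subst h
    refine hab (hF.inj_pm ?_)
    rcases ha1 with h | h <;> rcases hb1 with h' | h'
    · exact .inl (ac_inj _ (h.trans h'.symm))
    · exact .inr (ac_inj _ (by rw [h, ac_neg, h', neg_neg]))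
    · exact .inr (ac_inj _ (by rw [h, ac_neg, h']))
    · exact .inl (ac_inj _ (h.trans h'.symm))
  obtain ⟨m', hm'H, hm'M, hm'a, hm'b⟩ :
      ∃ m' ∈ H, Mono e m' ∧ ac m' (e a) = e a ∧ ac m' (e b'') = e b := by
    by_cases h : b'' = b
    · exact ⟨1, one_mem _, fun i => ⟨i, .inl (ac_one _)⟩, ac_one _, by rw [ac_one, h]⟩
    · obtain ⟨x, hx⟩ := exists_notMem (S := ({b'', b, a} : Finset ι)) (by
        have := Finset.card_le_three (a := b'') (b := b) (c := a); omega)
      simp only [Finset.mem_insert, Finset.mem_singleton, not_or] at hx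
      obtain ⟨m', hm', h1, h2, h3, h4⟩ := hG.three b'' b x h (Ne.symm hx.2.1) (Ne.symm hx.1)
      exact ⟨m', hm', mono_three h1 h2 h3 h4, h4 a (Ne.symm hne) hab (Ne.symm hx.2.2), h1⟩
  set k := m' * m * g with hk
  have hkH : k ∈ H := mul_mem (mul_mem hm'H hmH) hg
  have ha2 : ac k (e a) = e a ∨ ac k (e a) = -e a := by
    rw [hk, mul_assoc, ac_mul]
    rcases ha1 with h | h <;> simp [h, ac_neg, hm'a]
  have hb2 : ac k (e b) = e b ∨ ac k (e b) = -e b := by
    rw [hk, mul_assoc, ac_mul]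
    rcases hb1 with h | h <;> simp [h, ac_neg, hm'b]
  obtain ⟨x, hx⟩ := exists_notMem (S := ({a, b} : Finset ι)) (by
    have := Finset.card_le_two (a := a) (b := b); omega)
  simp only [Finset.mem_insert, Finset.mem_singleton, not_or] at hx
  have hkM : Mono e k := by
    rcases ha2 with ha2 | ha2 <;> rcases hb2 with hb2 | hb2
    · exact hK k hkH a b hab ha2 hb2
    · obtain ⟨f, hf, f1, f2, f3⟩ := hG.flip b x (Ne.symm hx.2)
      have h := hK (f * k) (mul_mem hf hkH) a b hab (by rw [ac_mul, ha2, f3 a hab (Ne.symm hx.1)])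
        (by rw [ac_mul, hb2, ac_neg, f1, neg_neg])
      simpa using mono_mul (hF.mono_inv (mono_flip f1 f2 f3)) h
    · obtain ⟨f, hf, f1, f2, f3⟩ := hG.flip a x (Ne.symm hx.1)
      have h := hK (f * k) (mul_mem hf hkH) a b hab (by rw [ac_mul, ha2, ac_neg, f1, neg_neg])
        (by rw [ac_mul, hb2, f3 b (Ne.symm hab) (Ne.symm hx.2)])
      simpa using mono_mul (hF.mono_inv (mono_flip f1 f2 f3)) h
    · obtain ⟨f, hf, f1, f2, f3⟩ := hG.flip a b hab
      have h := hK (f * k) (mul_mem hf hkH) a b hab (by rw [ac_mul, ha2, ac_neg, f1, neg_neg])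
        (by rw [ac_mul, hb2, ac_neg, f2, neg_neg])
      simpa using mono_mul (hF.mono_inv (mono_flip f1 f2 f3)) h
  have := mono_mul (hF.mono_inv (mono_mul hm'M hmM)) hkM
  rwa [hk, inv_mul_cancel_left] at this

end Frame

end CfsgLib.OrthFrame90
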