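import Cfsg.Agent.OrthFrame90.Elements

/-! An element carrying a frame pair into a small coordinate subspace is monomial. -/

set_option autoImplicit false
set_option linter.unusedSectionVars false

namespace CfsgLib.OrthFrame90

open Cfsg Cfsg.Geo Module CfsgLib.OrthGeo Finset
open scoped Matrix MatrixGroups

attribute [-simp] bform_apply

variable {ι : Type} [Fintype ι] [DecidableEq ι] {F : Type*} [Field F]
variable {Q : (ι → F) → F} {c : F} {e : ι → ι → F}

namespace Frame

variable (hF : Frame Q c e)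
include hF

lemma supp_add_of_disjoint {x y : ι → F} (h : Disjoint (hF.supp x) (hF.supp y)) :
    hF.supp (x + y) = hF.supp x ∪ hF.supp y := by
  refine (hF.supp_add_subset x y).antisymm fun k hk => ?_
  rw [Finset.mem_union] at hk
  rw [hF.mem_supp, map_add]
  rcases hk with hk | hk
  · rw [hF.not_mem_supp.1 (Finset.disjoint_left.1 h hk), add_zero]; exact hF.mem_supp.1 hk
  · rw [hF.not_mem_supp.1 (Finset.disjoint_right.1 h hk), zero_add]; exact hF.mem_supp.1 hk

/-- Orthogonal vectors negated by a monomial double reflection have equal small supports or tiny disjoint ones. -/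
lemma pair_shape {v : GL ι F} (hvI : v ∈ Cfsg.isometryGroup F Q) (hv : Mono e v) {f f' : ι → F}
    (hf : Q f = c) (hf' : Q f' = c) (ho : bform hF.nd f f' = 0)
    (happ : ∀ x, ac v x = x - (bform hF.nd f x / c) • f - (bform hF.nd f' x / c) • f') :
    (hF.supp f = hF.supp f' ∧ (hF.supp f).card ≤ 4) ∨
      (Disjoint (hF.supp f) (hF.supp f') ∧ (hF.supp f).card ≤ 2 ∧ (hF.supp f').card ≤ 2) := by
  have hff : bform hF.nd f f = 2 * c := by rw [b_self, hf]
  have hff' : bform hF.nd f' f' = 2 * c := by rw [b_self, hf']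
  have hc := hF.ne
  have h2c := hF.two_c_ne
  obtain ⟨σ, hσ⟩ := hF.mono_perm hv
  -- the displacement of each frame vector
  obtain ⟨α, hα⟩ : ∃ α : ι → F, ∀ k, α k = bform hF.nd f (e k) / c := ⟨_, fun _ => rfl⟩
  obtain ⟨β, hβ⟩ : ∃ β : ι → F, ∀ k, β k = bform hF.nd f' (e k) / c := ⟨_, fun _ => rfl⟩
  obtain ⟨r, hr⟩ : ∃ r : ι → ι → F, ∀ k, r k = α k • f + β k • f' := ⟨_, fun _ => rfl⟩
  have hr' : ∀ k, r k = e k - ac v (e k) := by
    intro k; rw [happ, hr, hα, hβ]; abel
  have hvv : ∀ x, ac v (ac v x) = x := by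
    intro x
    rw [happ (ac v x), happ x]
    simp only [map_sub, map_smul, smul_eq_mul, hff, hff', ho, b_symm hF.nd f' f]
    match_scalars <;> field_simp <;> ring
  have hσσ : ∀ k, σ (σ k) = k := by
    intro k
    refine (hF.inj_pm ?_).symm
    rcases hσ k with h | h <;> rcases hσ (σ k) with h' | h' <;>
      · have := hvv (e k)
        rw [h] at this
        try rw [ac_neg] at this
        rw [h'] at this
        try rw [neg_neg] at this
        first | exact .inl this.symm | exact .inr this.symm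
  set S := hF.supp f ∪ hF.supp f' with hS
  have hKsub : ∀ k, hF.supp (r k) ⊆ {k, σ k} := by
    intro k
    rw [hr']
    refine (hF.supp_sub_subset _ _).trans ?_
    rcases hσ k with h | h <;> rw [h] <;> simp [hF.supp_e, hF.supp_neg, Finset.subset_iff]
  have hmem : ∀ k ∈ S, k ∈ hF.supp (r k) := by
    intro k hk
    have hne : r k ≠ 0 := by
      intro h0
      rw [hS, Finset.mem_union, hF.mem_supp, hF.mem_supp] at hk
      rcases hk with hk | hk
      · apply hk
        have h := congrArg (bform hF.nd f) h0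
        rw [hr, map_zero, map_add, map_smul, map_smul, hff, ho, smul_eq_mul, smul_eq_mul, mul_zero, add_zero,
          hα] at h
        rw [b_symm hF.nd]
        exact (div_eq_zero_iff.1 ((mul_eq_zero.1 h).resolve_right h2c)).resolve_right hc
      · apply hk
        have h := congrArg (bform hF.nd f') h0
        rw [hr, map_zero, map_add, map_smul, map_smul, hff', b_symm hF.nd f' f, ho, smul_eq_mul, smul_eq_mul,
          mul_zero, zero_add, hβ] at h
        rw [b_symm hF.nd]
        exact (div_eq_zero_iff.1 ((mul_eq_zero.1 h).resolve_right h2c)).resolve_right hc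
    rw [hF.mem_supp, hr']
    by_cases hk' : σ k = k
    · rcases hσ k with h | h
      · exact absurd (by rw [hr', h, hk', sub_self]) hne
      · rw [h, hk', map_sub, map_neg, sub_neg_eq_add, hF.b_ee, ← two_mul]
        exact mul_ne_zero hF.two h2c
    · rcases hσ k with h | h <;>
        simp only [h, map_sub, map_neg, hF.b_ne (Ne.symm hk'), hF.b_ee, neg_zero, sub_zero] <;> exact h2c
  have hrne : ∀ k ∈ S, Q (r k) ≠ 0 := by
    intro k hk
    have h := hF.mem_supp.1 (hmem k hk)
    have h1 : bform hF.nd (r k) (r k) = 2 * bform hF.nd (e k) (r k) := by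
      rw [hr']
      simp only [map_sub, LinearMap.sub_apply, b_ac hF.nd hvI, hF.b_ee,
        b_symm hF.nd (ac v (e k)) (e k)]
      ring
    intro h0
    rw [b_self, h0, mul_zero] at h1
    exact mul_ne_zero hF.two h h1.symm
  have hf0 : (hF.supp f).Nonempty := by
    rw [Finset.nonempty_iff_ne_empty, Ne, hF.supp_eq_empty]
    intro h; exact hc (by rw [← hf, h, q_zero hF.nd])
  have hf0' : (hF.supp f').Nonempty := by
    rw [Finset.nonempty_iff_ne_empty, Ne, hF.supp_eq_empty]
    intro h; exact hc (by rw [← hf', h, q_zero hF.nd])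
  obtain ⟨k₁, hk₁⟩ : S.Nonempty := hf0.mono Finset.subset_union_left
  by_cases hsub : S ⊆ ({k₁, σ k₁} : Finset ι)
  · -- the plane has at most two coordinates
    have hS2 : S.card ≤ 2 := (Finset.card_le_card hsub).trans Finset.card_le_two
    have c1 : (hF.supp f).card ≤ 2 := (Finset.card_le_card Finset.subset_union_left).trans hS2
    have c2 : (hF.supp f').card ≤ 2 := (Finset.card_le_card Finset.subset_union_right).trans hS2
    have one : ∀ g g' : ι → F, g ≠ 0 → bform hF.nd g g' = 0 → (hF.supp g).card = 1 →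
        Disjoint (hF.supp g) (hF.supp g') := by
      intro g g' hg hgg hcard
      obtain ⟨i, hi⟩ := Finset.card_eq_one.1 hcard
      rw [hi, Finset.disjoint_singleton_left, hF.not_mem_supp]
      have h := hF.smul_of_supp_singleton (x := g) (k := i) (by rw [hi])
      rw [h, map_smul, LinearMap.smul_apply, smul_eq_mul] at hgg
      refine (mul_eq_zero.1 hgg).resolve_left fun h0 => hg ?_
      rw [h, h0, zero_smul]
    rcases (Nat.le_iff_lt_or_eq.1 c1) with h1 | h1
    · refine .inr ⟨one f f' ?_ ho ?_, c1, c2⟩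
      · intro h; simp [hF.supp_eq_empty.2 h] at hf0
      · have := hf0.card_pos; omega
    rcases (Nat.le_iff_lt_or_eq.1 c2) with h2 | h2
    · refine .inr ⟨(one f' f ?_ (by rw [b_symm hF.nd, ho]) ?_).symm, c1, c2⟩
      · intro h; simp [hF.supp_eq_empty.2 h] at hf0'
      · have := hf0'.card_pos; omega
    refine .inl ⟨?_, by omega⟩
    have e1 : hF.supp f = S := Finset.eq_of_subset_of_card_le Finset.subset_union_left (by omega)
    have e2 : hF.supp f' = S := Finset.eq_of_subset_of_card_le Finset.subset_union_right (by omega)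
    rw [e1, e2]
  obtain ⟨k₂, hk₂S, hk₂⟩ := Finset.not_subset.1 hsub
  simp only [Finset.mem_insert, Finset.mem_singleton, not_or] at hk₂
  have hKdis : Disjoint ({k₁, σ k₁} : Finset ι) {k₂, σ k₂} := by
    simp only [Finset.disjoint_insert_left, Finset.disjoint_singleton_left, Finset.mem_insert,
      Finset.mem_singleton, not_or]
    refine ⟨⟨Ne.symm hk₂.1, fun h => hk₂.2 ?_⟩, Ne.symm hk₂.2, fun h => hk₂.1 (σ.injective h).symm⟩
    rw [h, hσσ]
  have hrdis : Disjoint (hF.supp (r k₁)) (hF.supp (r k₂)) := hKdis.mono (hKsub k₁) (hKsub k₂)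
  set D := α k₁ * β k₂ - α k₂ * β k₁ with hD
  have eq1 : D • f = β k₂ • r k₁ + (-β k₁) • r k₂ := by
    rw [hr, hr, hD]; module
  have eq2 : D • f' = (-α k₂) • r k₁ + α k₁ • r k₂ := by
    rw [hr, hr, hD]; module
  have hD0 : D ≠ 0 := by
    intro h0
    rw [h0, zero_smul] at eq1 eq2
    have hh1 := congrArg (bform hF.nd (e k₁)) eq1
    have hh2 := congrArg (bform hF.nd (e k₁)) eq2
    simp only [map_zero, map_add, map_smul, smul_eq_mul,
      hF.not_mem_supp.1 (Finset.disjoint_left.1 hrdis (hmem k₁ hk₁)), mul_zero, add_zero] at hh1 hh2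
    have b0 : β k₂ = 0 := (mul_eq_zero.1 hh1.symm).resolve_right (hF.mem_supp.1 (hmem k₁ hk₁))
    have a0 : α k₂ = 0 :=
      neg_eq_zero.1 ((mul_eq_zero.1 hh2.symm).resolve_right (hF.mem_supp.1 (hmem k₁ hk₁)))
    have := hmem k₂ hk₂S
    rw [hr, a0, b0, zero_smul, zero_smul, add_zero] at this
    simp [hF.supp_eq_empty.2 rfl] at this
  obtain ⟨A, B, hA⟩ : ∃ A B : F, f = A • r k₁ + B • r k₂ :=
    ⟨D⁻¹ * β k₂, D⁻¹ * -β k₁, by rw [mul_smul, mul_smul, ← smul_add, ← eq1, inv_smul_smul₀ hD0]⟩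
  obtain ⟨A', B', hA'⟩ : ∃ A B : F, f' = A • r k₁ + B • r k₂ :=
    ⟨D⁻¹ * -α k₂, D⁻¹ * α k₁, by rw [mul_smul, mul_smul, ← smul_add, ← eq2, inv_smul_smul₀ hD0]⟩
  have hperp : bform hF.nd (r k₁) (r k₂) = 0 := by
    conv_lhs => rw [hF.expand (r k₂)]
    rw [map_sum]
    refine Finset.sum_eq_zero fun k _ => ?_
    rw [map_smul, smul_eq_mul]
    by_cases hk : k ∈ hF.supp (r k₂)
    · rw [b_symm hF.nd (r k₁) (e k), hF.not_mem_supp.1 (Finset.disjoint_right.1 hrdis hk), mul_zero]
    · rw [hF.not_mem_supp.1 hk, zero_div, zero_mul]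
  have hrel : A * A' * Q (r k₁) + B * B' * Q (r k₂) = 0 := by
    refine (mul_eq_zero.1 (?_ : (2 : F) * (A * A' * Q (r k₁) + B * B' * Q (r k₂)) = 0)).resolve_left hF.two
    rw [hA, hA'] at ho
    simp only [map_add, map_smul, LinearMap.add_apply, LinearMap.smul_apply, smul_eq_mul, hperp,
      b_symm hF.nd (r k₂) (r k₁), b_self] at ho
    linear_combination ho
  have hsupp : ∀ a b : F, hF.supp (a • r k₁ + b • r k₂) =
      hF.supp (a • r k₁) ∪ hF.supp (b • r k₂) := fun a b => by
    refine hF.supp_add_of_disjoint ?_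
    by_cases ha : a = 0; · simp [ha, hF.supp_eq_empty.2]
    by_cases hb : b = 0; · simp [hb, hF.supp_eq_empty.2]
    rwa [hF.supp_smul ha, hF.supp_smul hb]
  have c1 : (hF.supp (r k₁)).card ≤ 2 := (Finset.card_le_card (hKsub k₁)).trans Finset.card_le_two
  have c2 : (hF.supp (r k₂)).card ≤ 2 := (Finset.card_le_card (hKsub k₂)).trans Finset.card_le_two
  have hAB : ∀ a b : F, ∀ g, g = a • r k₁ + b • r k₂ → (hF.supp g).Nonempty → ¬ (a = 0 ∧ b = 0) := by
    rintro a b g rfl hg ⟨rfl, rfl⟩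
    simp [hF.supp_eq_empty.2] at hg
  have nf := hAB A B f hA hf0
  have nf' := hAB A' B' f' hA' hf0'
  have q1 := hrne k₁ hk₁
  have q2 := hrne k₂ hk₂S
  by_cases hA0 : A = 0
  · have hB : B ≠ 0 := fun h => nf ⟨hA0, h⟩
    have hB' : B' = 0 := by simpa [hA0, hB, q2] using hrel
    have hA'0 : A' ≠ 0 := fun h => nf' ⟨h, hB'⟩
    rw [hA, hA', hA0, hB', zero_smul, zero_smul, zero_add, add_zero, hF.supp_smul hB, hF.supp_smul hA'0]
    exact .inr ⟨hrdis.symm, c2, c1⟩
  by_cases hB0 : B = 0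
  · have hA' : A' = 0 := by simpa [hB0, hA0, q1] using hrel
    have hB' : B' ≠ 0 := fun h => nf' ⟨hA', h⟩
    rw [hA, ‹f' = _›, hB0, hA', zero_smul, zero_smul, add_zero, zero_add, hF.supp_smul hA0, hF.supp_smul hB']
    exact .inr ⟨hrdis, c1, c2⟩
  have hA'0 : A' ≠ 0 := fun h => nf' ⟨h, by simpa [h, hB0, q2] using hrel⟩
  have hB'0 : B' ≠ 0 := fun h => nf' ⟨by simpa [h, hA0, q1] using hrel, h⟩
  refine .inl ?_
  rw [hA, hA', hsupp, hsupp, hF.supp_smul hA0, hF.supp_smul hB0, hF.supp_smul hA'0, hF.supp_smul hB'0]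
  exact ⟨rfl, (Finset.card_union_le _ _).trans (by omega)⟩

variable {H : Subgroup (GL ι F)} (hH : H ≤ Cfsg.isometryGroup F Q) (hG : Gens e H)
  (hn : 9 ≤ Fintype.card ι)
  (hK : ∀ g ∈ H, ∀ a b : ι, a ≠ b → ac g (e a) = e a → ac g (e b) = e b → Mono e g)

include hH hG hn hK

/-- If many frame vectors are perpendicular to the images of a frame pair, the element is monomial. -/
theorem mono_of_far {h : GL ι F} (hh : h ∈ H) {a b : ι} (hab : a ≠ b) (R : Finset ι)
    (hR : ∀ k ∈ R, bform hF.nd (e k) (ac h (e a)) = 0 ∧ bform hF.nd (e k) (ac h (e b)) = 0)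
    (h5 : 5 ≤ R.card) (hlarge : Fintype.card ι ≤ 2 * R.card) : Mono e h := by
  suffices Mono e h⁻¹ by simpa using hF.mono_inv this
  have hI : h ∈ Cfsg.isometryGroup F Q := hH hh
  have hI' : h⁻¹ ∈ Cfsg.isometryGroup F Q := inv_mem hI
  set f : ι → ι → F := fun k => ac h⁻¹ (e k) with hf
  -- conjugates of elements moving frame vectors in `R` only
  have hconj : ∀ g ∈ H, ∀ S : Finset ι, S ⊆ R → (∀ k ∉ S, ac g (e k) = e k) → Mono e (h⁻¹ * g * h) := by
    intro g hg S hS hk
    refine hK _ (mul_mem (mul_mem (inv_mem hh) hg) hh) a b hab ?_ ?_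
    · rw [ac_mul, ac_mul, hF.fix_of_supp hk (fun k hk' => (hR k (hS hk')).1), ac_inv_ac]
    · rw [ac_mul, ac_mul, hF.fix_of_supp hk (fun k hk' => (hR k (hS hk')).2), ac_inv_ac]
  have hfQ : ∀ k, Q (f k) = c := fun k => by rw [hf, q_ac hI', hF.norm]
  have hforth : ∀ i j, i ≠ j → bform hF.nd (f i) (f j) = 0 := fun i j hij => by
    rw [hf, b_ac hF.nd hI', hF.b_ne hij]
  have shape : ∀ i ∈ R, ∀ j ∈ R, i ≠ j →
      (hF.supp (f i) = hF.supp (f j) ∧ (hF.supp (f i)).card ≤ 4) ∨
        (Disjoint (hF.supp (f i)) (hF.supp (f j)) ∧ (hF.supp (f i)).card ≤ 2 ∧ (hF.supp (f j)).card ≤ 2) := by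
    intro i hi j hj hij
    obtain ⟨t, ht, t1, t2, t3⟩ := hG.flip i j hij
    have hS : ∀ k ∉ ({i, j} : Finset ι), ac t (e k) = e k := by
      intro k hk
      simp only [Finset.mem_insert, Finset.mem_singleton, not_or] at hk
      exact t3 k hk.1 hk.2
    refine hF.pair_shape (v := h⁻¹ * t * h) (mul_mem (mul_mem hI' (hH ht)) hI)
      (hconj t ht {i, j} (by simp [Finset.subset_iff, hi, hj]) hS) (hfQ i) (hfQ j) (hforth i j hij) fun x => ?_
    rw [ac_mul, ac_mul, hF.flip_apply (hH ht) hij t1 t2 t3, ac_sub, ac_sub, ac_smul, ac_smul, ac_inv_ac]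
    have hb : ∀ y, bform hF.nd (f y) x = bform hF.nd (e y) (ac h x) := fun y => by
      rw [hf, b_ac_left hF.nd hI', inv_inv]
    rw [hb, hb]
  -- a three-cycle carries supports to supports
  have cyc : ∀ i ∈ R, ∀ j ∈ R, ∀ l ∈ R, i ≠ j → j ≠ l → i ≠ l →
      hF.supp (f i) = hF.supp (f j) → hF.supp (f l) = hF.supp (f j) := by
    intro i hi j hj l hl hij hjl hil heq
    obtain ⟨x, hx, x1, x2, x3, x4⟩ := hG.three i j l hij hjl hil
    have hS : ∀ k ∉ ({i, j, l} : Finset ι), ac x (e k) = e k := by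
      intro k hk
      simp only [Finset.mem_insert, Finset.mem_singleton, not_or] at hk
      exact x4 k hk.1 hk.2.1 hk.2.2
    obtain ⟨σ, hσ⟩ := hF.mono_perm (hconj x hx {i, j, l} (Finset.insert_subset hi (Finset.insert_subset hj (Finset.singleton_subset_iff.2 hl))) hS)
    have hmI : h⁻¹ * x * h ∈ Cfsg.isometryGroup F Q := mul_mem (mul_mem hI' (hH hx)) hI
    have e1 : ac (h⁻¹ * x * h) (f i) = f j := by rw [hf, ac_mul, ac_mul, ac_ac_inv, x1]
    have e2 : ac (h⁻¹ * x * h) (f j) = f l := by rw [hf, ac_mul, ac_mul, ac_ac_inv, x2]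
    rw [← e2, hF.supp_ac_mono hmI hσ, ← heq, ← hF.supp_ac_mono hmI hσ, e1, heq]
  by_cases heq : ∃ i ∈ R, ∃ j ∈ R, i ≠ j ∧ hF.supp (f i) = hF.supp (f j)
  · exfalso
    obtain ⟨i, hi, j, hj, hij, hs⟩ := heq
    have all : ∀ l ∈ R, hF.supp (f l) ⊆ hF.supp (f j) := by
      intro l hl
      by_cases hli : l = i; · exact hli ▸ hs.le
      by_cases hlj : l = j; · exact hlj ▸ le_rfl
      exact (cyc i hi j hj l hl hij (Ne.symm hlj) (Ne.symm hli) hs).le
    have h4 : (hF.supp (f j)).card ≤ 4 := by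
      rcases shape i hi j hj hij with ⟨h1, h2⟩ | ⟨-, -, h2⟩
      · rwa [← h1]
      · omega
    have := hF.card_le_of_supp R f _ (fun a _ b _ => hforth a b) (fun a _ => by rw [hfQ]; exact hF.ne) all
    omega
  push Not at heq
  have disj : ∀ i ∈ R, ∀ j ∈ R, i ≠ j → Disjoint (hF.supp (f i)) (hF.supp (f j)) ∧ (hF.supp (f i)).card ≤ 2 := by
    intro i hi j hj hij
    rcases shape i hi j hj hij with ⟨h1, -⟩ | ⟨h1, h2, -⟩
    · exact absurd h1 (heq i hi j hj hij)
    · exact ⟨h1, h2⟩
  -- two singletons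
  have two : ∃ i ∈ R, ∃ j ∈ R, i ≠ j ∧ (hF.supp (f i)).card = 1 ∧ (hF.supp (f j)).card = 1 := by
    by_contra hno
    push Not at hno
    have hsingle : (R.filter fun i => (hF.supp (f i)).card = 1).card ≤ 1 := by
      rw [Finset.card_le_one]
      intro i hi j hj
      rw [Finset.mem_filter] at hi hj
      by_contra hne
      exact hno i hi.1 j hj.1 hne hi.2 hj.2
    have hpos : ∀ i ∈ R, 2 ≤ (hF.supp (f i)).card ∨ (hF.supp (f i)).card = 1 := by
      intro i _
      have : (hF.supp (f i)).card ≠ 0 := by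
        rw [Finset.card_ne_zero, Finset.nonempty_iff_ne_empty, Ne, hF.supp_eq_empty]
        intro h0; exact hF.ne (by rw [← hfQ i, h0, q_zero hF.nd])
      omega
    have hdis : (R : Set ι).PairwiseDisjoint fun i => hF.supp (f i) :=
      fun i hi j hj hij => (disj i hi j hj hij).1
    have hle : (R.biUnion fun i => hF.supp (f i)).card ≤ Fintype.card ι - 2 := by
      have hsub : (R.biUnion fun i => hF.supp (f i)) ⊆ univ \ {a, b} := by
        intro k hk
        rw [Finset.mem_biUnion] at hk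
        obtain ⟨i, hi, hk⟩ := hk
        rw [Finset.mem_sdiff, Finset.mem_insert, Finset.mem_singleton]
        refine ⟨Finset.mem_univ _, ?_⟩
        rintro (rfl | rfl) <;> apply hF.mem_supp.1 hk <;>
          rw [b_symm hF.nd, hf, b_ac_left hF.nd hI', inv_inv]
        · exact (hR i hi).1
        · exact (hR i hi).2
      refine (Finset.card_le_card hsub).trans ?_
      rw [Finset.card_univ_sdiff, Finset.card_pair hab]
    rw [Finset.card_biUnion hdis] at hle
    have hsum : 2 * R.card ≤ (∑ i ∈ R, (hF.supp (f i)).card) + 1 := by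
      have h1 : ∑ i ∈ R, 2 ≤ ∑ i ∈ R, ((hF.supp (f i)).card + if (hF.supp (f i)).card = 1 then 1 else 0) := by
        refine Finset.sum_le_sum fun i hi => ?_
        rcases hpos i hi with h | h <;> split_ifs <;> omega
      rw [Finset.sum_const, smul_eq_mul, Finset.sum_add_distrib, ← Finset.card_filter] at h1
      omega
    omega
  obtain ⟨i, hi, j, hj, hij, h1, h2⟩ := two
  obtain ⟨i', hi'⟩ := Finset.card_eq_one.1 h1
  obtain ⟨j', hj'⟩ := Finset.card_eq_one.1 h2
  exact hF.mono_of_two hG hn hK (inv_mem hh) hij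
    (hF.pm_of_smul hI' (hF.smul_of_supp_singleton hi'.le))
    (hF.pm_of_smul hI' (hF.smul_of_supp_singleton hj'.le))

/-- An element commuting with a double sign change is monomial. -/
theorem mono_of_commute {h t : GL ι F} (hh : h ∈ H) (ht : t ∈ H) {a b : ι} (hab : a ≠ b)
    (ta : ac t (e a) = -e a) (tb : ac t (e b) = -e b) (tk : ∀ k, k ≠ a → k ≠ b → ac t (e k) = e k)
    (hcomm : h * t = t * h) : Mono e h := by
  have key : ∀ k, k ≠ a → k ≠ b → ∀ i, ac t (e i) = -e i → bform hF.nd (e k) (ac h (e i)) = 0 := by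
    intro k hka hkb i hi
    have h1 : ac t (ac h (e i)) = -ac h (e i) := by rw [← ac_mul, ← hcomm, ac_mul, hi, ac_neg]
    have h2 := b_ac hF.nd (hH ht) (e k) (ac h (e i))
    rw [tk k hka hkb, h1, map_neg] at h2
    refine (mul_eq_zero.1 (?_ : (2 : F) * bform hF.nd (e k) (ac h (e i)) = 0)).resolve_left hF.two
    linear_combination -h2
  refine hF.mono_of_far hH hG hn hK hh hab (univ \ {a, b}) (fun k hk => ?_) ?_ ?_
  · simp only [Finset.mem_sdiff, Finset.mem_univ, true_and, Finset.mem_insert, Finset.mem_singleton, not_or] at hk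
    exact ⟨key k hk.1 hk.2 a ta, key k hk.1 hk.2 b tb⟩
  all_goals rw [Finset.card_univ_sdiff, Finset.card_pair hab]; omega

end Frame

end CfsgLib.OrthFrame90
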