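import Cfsg.Agent.OrthGeo.NondegSmall
import Cfsg.Agent.OrthGeo.OddInvolutions

/-! An orthogonal frame of vectors of equal norm: coordinates, supports, monomial isometries. -/

set_option autoImplicit false
set_option linter.unusedSectionVars false

namespace CfsgLib.OrthFrame90

open Cfsg Cfsg.Geo Module CfsgLib.OrthGeo Finset
open scoped Matrix MatrixGroups

variable {ι : Type} [Fintype ι] [DecidableEq ι] {F : Type*} [Field F]

/-- The action on column vectors. -/
def ac (g : GL ι F) (x : ι → F) : ι → F := (g : Matrix ι ι F) *ᵥ x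

@[simp] lemma ac_one (x : ι → F) : ac (1 : GL ι F) x = x := by simp [ac]

lemma ac_mul (g h : GL ι F) (x : ι → F) : ac (g * h) x = ac g (ac h x) := by
  simp [ac, Matrix.mulVec_mulVec]

@[simp] lemma ac_inv_ac (g : GL ι F) (x : ι → F) : ac g⁻¹ (ac g x) = x := inv_mulVec_cancel g x

@[simp] lemma ac_ac_inv (g : GL ι F) (x : ι → F) : ac g (ac g⁻¹ x) = x := mulVec_inv_cancel g x

lemma ac_inj (g : GL ι F) {x y : ι → F} (h : ac g x = ac g y) : x = y := by
  simpa using congrArg (ac g⁻¹) h

@[simp] lemma ac_zero (g : GL ι F) : ac g (0 : ι → F) = 0 := Matrix.mulVec_zero _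

lemma ac_add (g : GL ι F) (x y : ι → F) : ac g (x + y) = ac g x + ac g y := Matrix.mulVec_add _ _ _

lemma ac_sub (g : GL ι F) (x y : ι → F) : ac g (x - y) = ac g x - ac g y := Matrix.mulVec_sub _ _ _

lemma ac_neg (g : GL ι F) (x : ι → F) : ac g (-x) = -ac g x := Matrix.mulVec_neg _ _

lemma ac_smul (g : GL ι F) (c : F) (x : ι → F) : ac g (c • x) = c • ac g x := Matrix.mulVec_smul _ _ _

variable {Q : (ι → F) → F}

/-- Pairwise orthogonal vectors of equal non-zero norm, one for each coordinate. -/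
structure Frame (Q : (ι → F) → F) (c : F) (e : ι → ι → F) : Prop where
  nd : IsNondegenerateQuadraticForm Q
  norm : ∀ i, Q (e i) = c
  orth : ∀ i j, i ≠ j → QuadraticMap.polar Q (e i) (e j) = 0
  ne : c ≠ 0
  two : (2 : F) ≠ 0

/-- The isometry maps every frame vector to a frame vector or its negative. -/
def Mono (e : ι → ι → F) (g : GL ι F) : Prop := ∀ i, ∃ j, ac g (e i) = e j ∨ ac g (e i) = -e j

attribute [-simp] bform_apply

variable {c : F} {e : ι → ι → F}

namespace Frame

variable (hF : Frame Q c e)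
include hF

lemma b_ee (i : ι) : bform hF.nd (e i) (e i) = 2 * c := by rw [b_self, hF.norm]

lemma b_ne {i j : ι} (h : i ≠ j) : bform hF.nd (e i) (e j) = 0 := hF.orth i j h

lemma two_c_ne : (2 : F) * c ≠ 0 := mul_ne_zero hF.two hF.ne

lemma b_sum_e (a : ι → F) (k : ι) : bform hF.nd (e k) (∑ i, a i • e i) = a k * (2 * c) := by
  rw [map_sum, Finset.sum_eq_single k]
  · rw [map_smul, hF.b_ee, smul_eq_mul]
  · intro i _ hi
    rw [map_smul, hF.b_ne (Ne.symm hi), smul_zero]
  · simp

lemma indep : LinearIndependent F e := by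
  refine Fintype.linearIndependent_iff.2 fun a ha k => ?_
  have h := hF.b_sum_e a k
  rw [ha, map_zero] at h
  exact (mul_eq_zero.1 h.symm).resolve_right hF.two_c_ne

lemma expand (x : ι → F) : x = ∑ k, (bform hF.nd (e k) x / (2 * c)) • e k := by
  classical
  have hspan : Submodule.span F (Set.range e) = ⊤ :=
    hF.indep.span_eq_top_of_card_eq_finrank' (finrank_fintype_fun_eq_card F).symm
  have hx : x ∈ Submodule.span F (Set.range e) := hspan ▸ Submodule.mem_top
  obtain ⟨a, rfl⟩ := (Submodule.mem_span_range_iff_exists_fun F).1 hx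
  refine Finset.sum_congr rfl fun k _ => ?_
  rw [hF.b_sum_e, mul_div_cancel_right₀ _ hF.two_c_ne]

lemma ext {x y : ι → F} (h : ∀ k, bform hF.nd (e k) x = bform hF.nd (e k) y) : x = y := by
  rw [hF.expand x, hF.expand y]
  simp only [h]

lemma ne_zero (k : ι) : e k ≠ 0 := fun h => hF.two_c_ne (by rw [← hF.b_ee k, h, map_zero])

lemma inj {i j : ι} (h : e i = e j) : i = j := by
  by_contra hne
  exact hF.two_c_ne (by rw [← hF.b_ee i]; nth_rw 2 [h]; exact hF.b_ne hne)

lemma inj_neg {i j : ι} (h : e i = -e j) : False := by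
  by_cases hne : i = j
  · subst hne
    refine hF.ne_zero i ((smul_eq_zero.1 ?_).resolve_left hF.two)
    rw [two_smul]; nth_rw 2 [h]; exact add_neg_cancel _
  · exact hF.two_c_ne (by rw [← hF.b_ee i]; nth_rw 2 [h]; rw [map_neg, hF.b_ne hne, neg_zero])

lemma inj_pm {i j : ι} (h : e i = e j ∨ e i = -e j) : i = j :=
  h.elim hF.inj fun h => (hF.inj_neg h).elim

/-- Agreement on the frame determines an element. -/
lemma gl_eq {g h : GL ι F} (H : ∀ k, ac g (e k) = ac h (e k)) : g = h := by
  refine gl_ext fun x => ?_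
  rw [hF.expand x]
  simp only [Matrix.mulVec_sum, Matrix.mulVec_smul]
  exact Finset.sum_congr rfl fun k _ => congrArg _ (H k)

omit hF in
lemma b_ac (hQ : IsNondegenerateQuadraticForm Q) {g : GL ι F} (hg : g ∈ Cfsg.isometryGroup F Q) (x y : ι → F) :
    bform hQ (ac g x) (ac g y) = bform hQ x y := isometry_b hQ hg x y

omit hF in
lemma b_ac_left (hQ : IsNondegenerateQuadraticForm Q) {g : GL ι F} (hg : g ∈ Cfsg.isometryGroup F Q) (x y : ι → F) :
    bform hQ (ac g x) y = bform hQ x (ac g⁻¹ y) := by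
  conv_lhs => rw [← ac_ac_inv g y]
  exact b_ac hQ hg _ _

omit hF in
lemma q_ac {g : GL ι F} (hg : g ∈ Cfsg.isometryGroup F Q) (x : ι → F) : Q (ac g x) = Q x :=
  mem_isometryGroup.1 hg x

/-- A frame vector sent to a multiple of one is sent to it or its negative. -/
lemma pm_of_smul {g : GL ι F} (hg : g ∈ Cfsg.isometryGroup F Q) {i j : ι} {a : F}
    (h : ac g (e i) = a • e j) : ac g (e i) = e j ∨ ac g (e i) = -e j := by
  have h1 : Q (ac g (e i)) = c := by rw [q_ac hg, hF.norm]
  rw [h, q_smul hF.nd, hF.norm] at h1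
  have h2 : (a - 1) * (a + 1) = 0 := by
    refine (mul_eq_zero.1 (?_ : (a - 1) * (a + 1) * c = 0)).resolve_right hF.ne
    linear_combination h1
  rcases mul_eq_zero.1 h2 with h3 | h3
  · left; rw [h, sub_eq_zero.1 h3, one_smul]
  · right; rw [h, eq_neg_of_add_eq_zero_left h3, neg_one_smul]

/-- The support of a vector in the frame. -/
noncomputable def supp (x : ι → F) : Finset ι := by
  classical exact univ.filter fun k => bform hF.nd (e k) x ≠ 0

lemma mem_supp {x : ι → F} {k : ι} : k ∈ hF.supp x ↔ bform hF.nd (e k) x ≠ 0 := by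
  simp [supp]

lemma not_mem_supp {x : ι → F} {k : ι} : k ∉ hF.supp x ↔ bform hF.nd (e k) x = 0 := by
  rw [hF.mem_supp, not_not]

lemma supp_subset {x : ι → F} {S : Finset ι} :
    hF.supp x ⊆ S ↔ ∀ k ∉ S, bform hF.nd (e k) x = 0 :=
  ⟨fun h k hk => hF.not_mem_supp.1 fun hk' => hk (h hk'),
    fun h k hk => by_contra fun hk' => hF.mem_supp.1 hk (h k hk')⟩

lemma supp_e (i : ι) : hF.supp (e i) = {i} := by
  ext k
  rw [hF.mem_supp, Finset.mem_singleton]
  refine ⟨fun h => by_contra fun hne => h (hF.b_ne hne), ?_⟩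
  rintro rfl
  rw [hF.b_ee]; exact hF.two_c_ne

lemma supp_smul {a : F} (ha : a ≠ 0) (x : ι → F) : hF.supp (a • x) = hF.supp x := by
  ext k; simp [hF.mem_supp, ha]

lemma supp_neg (x : ι → F) : hF.supp (-x) = hF.supp x := by
  rw [← neg_one_smul F x, hF.supp_smul (neg_ne_zero.2 one_ne_zero)]

lemma supp_add_subset (x y : ι → F) : hF.supp (x + y) ⊆ hF.supp x ∪ hF.supp y := by
  rw [hF.supp_subset]
  intro k hk
  rw [Finset.mem_union, not_or, hF.not_mem_supp, hF.not_mem_supp] at hk
  rw [map_add, hk.1, hk.2, add_zero]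

lemma supp_sub_subset (x y : ι → F) : hF.supp (x - y) ⊆ hF.supp x ∪ hF.supp y := by
  rw [sub_eq_add_neg, ← hF.supp_neg y]; exact hF.supp_add_subset _ _

lemma supp_eq_empty {x : ι → F} : hF.supp x = ∅ ↔ x = 0 := by
  refine ⟨fun h => hF.ext fun k => ?_, fun h => by ext k; simp [hF.mem_supp, h]⟩
  rw [map_zero]
  exact hF.not_mem_supp.1 (by simp [h])

lemma smul_of_supp_singleton {x : ι → F} {k : ι} (h : hF.supp x ⊆ {k}) :
    x = (bform hF.nd (e k) x / (2 * c)) • e k := by
  conv_lhs => rw [hF.expand x]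
  refine Finset.sum_eq_single k (fun i _ hi => ?_) (by simp)
  rw [hF.supp_subset.1 h i (by simpa using hi), zero_div, zero_smul]

/-- A monomial isometry permutes the supports. -/
lemma mono_perm {g : GL ι F} (hm : Mono e g) :
    ∃ σ : Equiv.Perm ι, ∀ i, ac g (e i) = e (σ i) ∨ ac g (e i) = -e (σ i) := by
  choose σ hσ using hm
  have hinj : Function.Injective σ := by
    intro i j hij
    refine hF.inj_pm ?_
    have hi := hσ i
    rw [hij] at hi
    rcases hσ j with hj | hj <;> rcases hi with hi | hi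
    · exact .inl (ac_inj g (hi.trans hj.symm))
    · exact .inr (ac_inj g (by rw [hi, ac_neg, hj]))
    · exact .inr (ac_inj g (by rw [hi, ac_neg, hj, neg_neg]))
    · exact .inl (ac_inj g (hi.trans hj.symm))
  exact ⟨Equiv.ofBijective σ (Finite.injective_iff_bijective.1 hinj), hσ⟩

lemma mono_inv {g : GL ι F} (hm : Mono e g) : Mono e g⁻¹ := by
  obtain ⟨σ, hσ⟩ := hF.mono_perm hm
  intro i
  refine ⟨σ.symm i, ?_⟩
  have h := hσ (σ.symm i)
  rw [σ.apply_symm_apply] at h
  rcases h with h | h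
  · left; rw [← h, ac_inv_ac]
  · right; rw [← neg_neg (e i), ← h, ac_neg, ac_inv_ac]

omit hF in
lemma mono_mul {g h : GL ι F} (hg : Mono e g) (hh : Mono e h) : Mono e (g * h) := by
  intro i
  obtain ⟨j, hj⟩ := hh i
  obtain ⟨k, hk⟩ := hg j
  refine ⟨k, ?_⟩
  rw [ac_mul]
  rcases hj with hj | hj <;> rw [hj] <;> rcases hk with hk | hk <;> simp [ac_neg, hk]

lemma supp_ac_mono {g : GL ι F} (hgI : g ∈ Cfsg.isometryGroup F Q) {σ : Equiv.Perm ι}
    (hσ : ∀ i, ac g (e i) = e (σ i) ∨ ac g (e i) = -e (σ i)) (x : ι → F) :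
    hF.supp (ac g x) = (hF.supp x).image σ := by
  ext k
  rw [Finset.mem_image]
  have key : ∀ i, bform hF.nd (e (σ i)) (ac g x) = 0 ↔ bform hF.nd (e i) x = 0 := by
    intro i
    rw [← b_ac hF.nd hgI (e i) x]
    rcases hσ i with h | h <;> rw [h] <;> simp
  constructor
  · intro hk
    refine ⟨σ.symm k, ?_, σ.apply_symm_apply k⟩
    rw [hF.mem_supp] at hk ⊢
    intro h0
    exact hk (by simpa using (key (σ.symm k)).2 h0)
  · rintro ⟨i, hi, rfl⟩
    rw [hF.mem_supp] at hi ⊢
    exact fun h0 => hi ((key i).1 h0)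

/-- Pairwise orthogonal non-singular vectors supported in `S` number at most `#S`. -/
lemma card_le_of_supp {α : Type*} (R : Finset α) (f : α → ι → F) (S : Finset ι)
    (horth : ∀ a ∈ R, ∀ b ∈ R, a ≠ b → bform hF.nd (f a) (f b) = 0)
    (hne : ∀ a ∈ R, Q (f a) ≠ 0) (hsupp : ∀ a ∈ R, hF.supp (f a) ⊆ S) : R.card ≤ S.card := by
  classical
  let L : (ι → F) →ₗ[F] (S → F) := LinearMap.pi fun k => bform hF.nd (e k)
  have hli : LinearIndependent F (fun a : R => L (f a)) := by
    refine Fintype.linearIndependent_iff.2 fun r hr a => ?_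
    have hz : ∑ b : R, r b • f b = 0 := by
      refine hF.ext fun k => ?_
      rw [map_zero, map_sum]
      by_cases hk : k ∈ S
      · have h := congrFun hr ⟨k, hk⟩
        simpa [L, Finset.sum_apply] using h
      · exact Finset.sum_eq_zero fun b _ => by
          rw [map_smul, hF.supp_subset.1 (hsupp b b.2) k hk, smul_zero]
    have h := congrArg (bform hF.nd (f a)) hz
    rw [map_zero, map_sum, Finset.sum_eq_single a, map_smul, b_self, smul_eq_mul] at h
    · exact (mul_eq_zero.1 h).resolve_right (mul_ne_zero hF.two (hne a a.2))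
    · intro b _ hb
      rw [map_smul, horth a a.2 b b.2 (fun h' => hb (Subtype.ext h').symm), smul_zero]
    · simp
  have h := hli.fintype_card_le_finrank
  simpa using h

end Frame

end CfsgLib.OrthFrame90
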