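import Cfsg.Agent.OrthFrame90.Transfer
import Cfsg.Agent.OrthGeo.RootLines
import Mathlib.FieldTheory.Finite.Basic

/-! Root groups on seven frame vectors generate the whole group, and the group is not monomial. -/

set_option autoImplicit false
set_option linter.unusedSectionVars false

namespace CfsgLib.OrthFrame90

open Cfsg Cfsg.Geo Module CfsgLib.OrthGeo Finset
open scoped Matrix MatrixGroups

attribute [-simp] bform_apply

variable {ι : Type} [Fintype ι] [DecidableEq ι] {F : Type*} [Field F] [Finite F]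
variable {Q : (ι → F) → F} {c : F} {e : ι → ι → F}

omit [Finite F] in
lemma nodup_four {a b d x : ι} (h1 : a ≠ b) (h2 : a ≠ d) (h3 : a ≠ x) (h4 : b ≠ d) (h5 : b ≠ x) (h6 : d ≠ x) :
    [a, b, d, x].Nodup := by simp [h1, h2, h3, h4, h5, h6]

namespace Frame

variable (hF : Frame Q c e)
include hF

/-- A singular vector on three given frame vectors involving the first two unequally. -/
lemma exists_singular_three {a b d : ι} (hab : a ≠ b) (had : a ≠ d) (hbd : b ≠ d) :
    ∃ α β : F, Q (α • e a + β • e b + e d) = 0 ∧ Q (-α • e a + -β • e b + e d) = 0 ∧ (α ≠ 0 ∨ β ≠ 0) := by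
  classical
  have := Fintype.ofFinite F
  obtain ⟨α, β, h⟩ : ∃ α β : F, α ^ 2 + β ^ 2 = -1 := by
    have hodd : Fintype.card F % 2 = 1 := by
      refine FiniteField.odd_card_of_char_ne_two fun h => hF.two ?_
      have := ringChar.Nat.cast_ringChar (R := F)
      rw [h] at this
      exact_mod_cast this
    obtain ⟨α, β, h⟩ := FiniteField.exists_root_sum_quadratic
      (f := Polynomial.C (1 : F) * Polynomial.X ^ 2)
      (g := Polynomial.C (1 : F) * Polynomial.X ^ 2 + Polynomial.C (1 : F))
      (Polynomial.degree_C_mul_X_pow 2 one_ne_zero)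
      (by rw [Polynomial.degree_add_eq_left_of_degree_lt] <;>
          simp [Polynomial.degree_C_mul_X_pow 2 (one_ne_zero (α := F)), Polynomial.degree_one]) hodd
    refine ⟨α, β, ?_⟩
    simp only [Polynomial.eval_add, Polynomial.eval_mul, Polynomial.eval_C, Polynomial.eval_pow,
      Polynomial.eval_X] at h
    linear_combination h
  have q : ∀ γ δ : F, γ ^ 2 = α ^ 2 → δ ^ 2 = β ^ 2 → Q (γ • e a + δ • e b + e d) = 0 := by
    intro γ δ hγ hδ
    rw [q_add hF.nd, q_add hF.nd, q_smul hF.nd, q_smul hF.nd, hF.norm, hF.norm, hF.norm]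
    simp only [map_add, map_smul, LinearMap.add_apply, LinearMap.smul_apply, smul_eq_mul,
      hF.b_ne hab, hF.b_ne had, hF.b_ne hbd]
    linear_combination c * h + c * hγ + c * hδ
  refine ⟨α, β, q α β rfl rfl, q (-α) (-β) (by ring) (by ring), ?_⟩
  by_contra h0
  push Not at h0
  rw [h0.1, h0.2] at h
  norm_num at h

/-- Sums of reflection pairs move a frame vector off the frame. -/
lemma not_mono_omega (hn : 5 ≤ Fintype.card ι) : ∃ g ∈ omegaGL Q, ¬ Mono e g := by
  classical
  obtain ⟨a, b, d, x, hab, had, hax, hbd, hbx, hdx⟩ : ∃ a b d x : ι,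
      a ≠ b ∧ a ≠ d ∧ a ≠ x ∧ b ≠ d ∧ b ≠ x ∧ d ≠ x := by
    let q := (Fintype.equivFin ι).symm
    refine ⟨q ⟨0, by omega⟩, q ⟨1, by omega⟩, q ⟨2, by omega⟩, q ⟨3, by omega⟩, ?_, ?_, ?_, ?_, ?_, ?_⟩ <;>
      simp [q.injective.eq_iff, Fin.ext_iff]
  obtain ⟨α, β, hz, -, hαβ⟩ := hF.exists_singular_three hab had hbd
  set v := e x + (α • e a + β • e b + e d) with hv
  have hQv : Q v = c := by
    rw [hv, q_add hF.nd, hz, hF.norm]
    simp [hF.b_ne (Ne.symm hax), hF.b_ne (Ne.symm hbx), hF.b_ne (Ne.symm hdx)]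
  have hv0 : Q v ≠ 0 := by rw [hQv]; exact hF.ne
  refine ⟨_, reflection_pair_mem_omega_of_eq hF.nd hn hv0 (by rw [hF.norm x]; exact hF.ne : Q (e x) ≠ 0)
    (by rw [hQv, hF.norm]), fun hm => ?_⟩
  obtain ⟨l, hl⟩ := hm d
  have h1 : ac (reflection hF.nd hv0 * reflection hF.nd (by rw [hF.norm x]; exact hF.ne : Q (e x) ≠ 0)) (e d) =
      e d - (2 : F) • v := by
    rw [ac_mul]
    simp only [ac, reflection_mulVec]
    rw [hF.b_ne (Ne.symm hdx), mul_zero, zero_smul, sub_zero, hQv,
      show bform hF.nd v (e d) = 2 * c by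
        rw [hv]; simp [hF.b_ne (Ne.symm hdx), hF.b_ne had, hF.b_ne hbd, hF.b_ee],
      show c⁻¹ * (2 * c) = 2 by field_simp [hF.ne]]
  rw [h1] at hl
  have hb : ∀ k, k ≠ d → k ≠ l → bform hF.nd (e k) v = 0 := by
    intro k hkd hkl
    rcases hl with h | h <;> have h' := congrArg (bform hF.nd (e k)) h <;>
      simp only [map_sub, map_neg, map_smul, smul_eq_mul, hF.b_ne hkd, hF.b_ne hkl, zero_sub, neg_zero,
        neg_eq_zero, mul_eq_zero, hF.two, false_or] at h' <;> exact h'
  have hx : l = x := by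
    by_contra hne
    have := hb x (Ne.symm hdx) (Ne.symm hne)
    rw [hv] at this
    simp [hF.b_ne (Ne.symm hax), hF.b_ne (Ne.symm hbx), hF.b_ne (Ne.symm hdx), hF.b_ee, hF.two, hF.ne] at this
  subst hx
  rcases hαβ with h | h
  · have := hb a had hax
    rw [hv] at this
    simp [hF.b_ne hab, hF.b_ne had, hF.b_ne hax, hF.b_ee, hF.two, hF.ne, h] at this
  · have := hb b hbd hbx
    rw [hv] at this
    simp [hF.b_ne (Ne.symm hab), hF.b_ne hbd, hF.b_ne hbx, hF.b_ee, hF.two, hF.ne, h] at this

variable {H : Subgroup (GL ι F)} (hH : H ≤ Cfsg.isometryGroup F Q) (hG : Gens e H) (hn : 9 ≤ Fintype.card ι)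
include hH hG hn

/-- All root groups on some seven frame vectors generate Omega. -/
theorem omega_le_of_seven {T₀ : Finset ι} (hT₀ : T₀.card = 7)
    (h0 : ∀ u w, hF.supp u ⊆ T₀ → hF.supp w ⊆ T₀ → Q u = 0 → bform hF.nd u w = 0 → EIn Q H u w) :
    omegaGL Q ≤ H := by
  classical
  let good : Finset ι → Prop := fun T =>
    ∀ u w, hF.supp u ⊆ T → hF.supp w ⊆ T → Q u = 0 → bform hF.nd u w = 0 → EIn Q H u w
  have mono : ∀ {S T : Finset ι}, S ⊆ T → good T → good S := fun hST hT u w h1 h2 =>
    hT u w (h1.trans hST) (h2.trans hST)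
  have swap : ∀ {T : Finset ι}, T.card = 7 → good T → ∀ a ∈ T, ∀ b ∉ T, good (insert b (T.erase a)) := by
    intro T hT hgood a ha b hb
    obtain ⟨x, hx⟩ := exists_notMem (S := insert b T) (by have := Finset.card_insert_le b T; omega)
    rw [Finset.mem_insert, not_or] at hx
    have hab : a ≠ b := fun h => hb (h ▸ ha)
    have hax : a ≠ x := fun h => hx.2 (h ▸ ha)
    obtain ⟨g, hg, g1, g2, g3, g4⟩ := hG.three a b x hab (Ne.symm hx.1) hax
    have hgI := hH hg
    obtain ⟨σ, hσ⟩ := hF.mono_perm (mono_three g1 g2 g3 g4)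
    have σb : σ.symm b = a := by
      rw [Equiv.symm_apply_eq]
      refine hF.inj_pm ?_
      rcases hσ a with h | h <;> rw [g1] at h
      · exact .inl h
      · exact .inr h
    have σk : ∀ k ∈ T.erase a, σ.symm k = k := by
      intro k hk
      rw [Finset.mem_erase] at hk
      rw [Equiv.symm_apply_eq]
      have := g4 k hk.1 (fun h => hb (h ▸ hk.2)) (fun h => hx.2 (h ▸ hk.2))
      refine hF.inj_pm ?_
      rcases hσ k with h | h <;> rw [this] at h
      · exact .inl h
      · exact .inr h
    have hpre : ∀ y, hF.supp y ⊆ insert b (T.erase a) → hF.supp (ac g⁻¹ y) ⊆ T := by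
      intro y hy k hk
      have h1 : σ k ∈ hF.supp y := by
        rw [← ac_ac_inv g y, hF.supp_ac_mono hgI hσ]
        exact Finset.mem_image_of_mem _ hk
      rcases Finset.mem_insert.1 (hy h1) with h | h
      · rw [← σ.symm_apply_apply k, h, σb]; exact ha
      · rw [← σ.symm_apply_apply k, σk _ h]; exact Finset.mem_of_mem_erase h
    intro u w hu hw huQ huw
    have h1 := hgood (ac g⁻¹ u) (ac g⁻¹ w) (hpre u hu) (hpre w hw) (by rw [q_ac (inv_mem hgI), huQ])
      (by rw [b_ac hF.nd (inv_mem hgI), huw])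
    have h2 := h1.conj hF.nd (by rw [q_ac (inv_mem hgI), huQ]) (by rw [b_ac hF.nd (inv_mem hgI), huw]) hg hgI
    change EIn Q H (ac g (ac g⁻¹ u)) (ac g (ac g⁻¹ w)) at h2
    rwa [ac_ac_inv, ac_ac_inv] at h2
  have seven : ∀ k, ∀ T : Finset ι, T.card = 7 → (T \ T₀).card = k → good T := by
    intro k
    induction k with
    | zero =>
      intro T hT hk
      rw [Finset.card_eq_zero, Finset.sdiff_eq_empty_iff_subset] at hk
      exact mono hk h0
    | succ k ih =>
      intro T hT hk
      obtain ⟨b, hb⟩ := Finset.card_pos.1 (show 0 < (T \ T₀).card by omega)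
      rw [Finset.mem_sdiff] at hb
      obtain ⟨a, ha⟩ : (T₀ \ T).Nonempty := by
        rw [← Finset.card_pos, Finset.card_sdiff]
        rw [Finset.card_sdiff, Finset.inter_comm] at hk
        omega
      rw [Finset.mem_sdiff] at ha
      have hab : a ∉ T.erase b := fun h => ha.2 (Finset.mem_of_mem_erase h)
      have hT' : (insert a (T.erase b)).card = 7 := by
        rw [Finset.card_insert_of_notMem hab, Finset.card_erase_of_mem hb.1]; omega
      have hk' : (insert a (T.erase b) \ T₀).card = k := by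
        rw [Finset.insert_sdiff_of_mem _ ha.1, Finset.erase_sdiff_comm,
          Finset.card_erase_of_mem (Finset.mem_sdiff.2 hb), hk]; omega
      have hbn : b ∉ insert a (T.erase b) := by
        simp [show b ≠ a from fun h => ha.2 (h ▸ hb.1)]
      have := swap hT' (ih _ hT' hk') a (Finset.mem_insert_self _ _) b hbn
      rwa [Finset.erase_insert hab, Finset.insert_erase hb.1] at this
  have small : ∀ T : Finset ι, T.card ≤ 7 → good T := by
    intro T hT
    obtain ⟨T', hsub, -, hT'⟩ := Finset.exists_subsuperset_card_eq (Finset.subset_univ T) hT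
      (by rw [Finset.card_univ]; omega : (7 : ℕ) ≤ (univ : Finset ι).card)
    exact mono hsub (seven _ T' hT' rfl)
  refine omega_le_of_root_vectors hF.nd (by omega) hH {z | Q z = 0 ∧ (hF.supp z).card ≤ 3} ?_ ?_
  · rintro z ⟨hz, hz3⟩
    refine ⟨hz, fun w hw => ?_⟩
    set S := hF.supp z with hS
    obtain ⟨a, ha⟩ : ∃ a : ι → F, ∀ k, a k = bform hF.nd (e k) w / (2 * c) := ⟨_, fun _ => rfl⟩
    have hsplit : w = ∑ k ∈ S, a k • e k + ∑ k ∈ univ \ S, a k • e k := by
      rw [add_comm, Finset.sum_sdiff (Finset.subset_univ S)]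
      simp only [ha]
      exact hF.expand w
    have hout : ∀ k ∉ S, bform hF.nd z (a k • e k) = 0 := fun k hk => by
      rw [map_smul, b_symm hF.nd, hF.not_mem_supp.1 hk, smul_zero]
    have hout' : ∀ R : Finset ι, R ⊆ univ \ S → bform hF.nd z (∑ k ∈ R, a k • e k) = 0 := fun R hR => by
      rw [map_sum]
      exact Finset.sum_eq_zero fun k hk => hout k (Finset.mem_sdiff.1 (hR hk)).2
    have hin : bform hF.nd z (∑ k ∈ S, a k • e k) = 0 := by
      have h := hw
      rw [hsplit, map_add, hout' _ le_rfl, add_zero] at h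
      exact h
    have hsupp : ∀ k ∈ univ, k ∉ S → hF.supp (a k • e k) ⊆ insert k S := by
      intro k _ _
      rw [hF.supp_subset]
      intro l hl
      rw [Finset.mem_insert, not_or] at hl
      rw [map_smul, hF.b_ne hl.1, smul_zero]
    have sums : ∀ R : Finset ι, R ⊆ univ \ S → EIn Q H z (∑ k ∈ R, a k • e k) := by
      intro R
      induction R using Finset.induction_on with
      | empty =>
        intro _
        exact small S (by omega) _ _ le_rfl (by simp [hF.supp_eq_empty.2 rfl]) hz (by simp)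
      | insert k R hkR ih =>
        intro hR
        rw [Finset.sum_insert hkR]
        have hk := Finset.mem_sdiff.1 (hR (Finset.mem_insert_self k R))
        refine EIn.add hF.nd ?_ (ih ((Finset.subset_insert k R).trans hR)) hz (hout k hk.2)
          (hout' R ((Finset.subset_insert k R).trans hR))
        exact small (insert k S) (by have := Finset.card_insert_le k S; omega) _ _ (Finset.subset_insert _ _)
          (hsupp k hk.1 hk.2) hz (hout k hk.2)
    rw [hsplit]
    refine EIn.add hF.nd ?_ (sums _ le_rfl) hz hin (hout' _ le_rfl)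
    refine small S (by omega) _ _ le_rfl ?_ hz hin
    rw [hF.supp_subset]
    intro k hk
    rw [map_sum]
    exact Finset.sum_eq_zero fun l hl => by rw [map_smul, hF.b_ne (show k ≠ l from fun h => hk (h ▸ hl)), smul_zero]
  · have spot : ∀ x : ι → F, x ≠ 0 → ∃ z, Q z = 0 ∧ (hF.supp z).card ≤ 3 ∧ bform hF.nd z x ≠ 0 := by
      intro x hx
      by_contra hcon
      push Not at hcon
      refine hx (hF.ext fun k => ?_)
      rw [map_zero]
      obtain ⟨b, hb⟩ := exists_notMem (S := ({k} : Finset ι)) (by simp; omega)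
      obtain ⟨d, hd⟩ := exists_notMem (S := ({k, b} : Finset ι)) (by
        have := Finset.card_le_two (a := k) (b := b); omega)
      simp only [Finset.mem_singleton] at hb
      simp only [Finset.mem_insert, Finset.mem_singleton, not_or] at hd
      have card3 : ∀ (p q r : ι) (α β : F), (hF.supp (α • e p + β • e q + e r)).card ≤ 3 := by
        intro p q r α β
        refine (Finset.card_le_card (t := {p, q, r}) ?_).trans Finset.card_le_three
        rw [hF.supp_subset]
        intro l hl
        simp only [Finset.mem_insert, Finset.mem_singleton, not_or] at hl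
        simp [hF.b_ne hl.1, hF.b_ne hl.2.1, hF.b_ne hl.2.2]
      obtain ⟨α, β, h1, h2, -⟩ := hF.exists_singular_three (Ne.symm hd.2) hb hd.1
      have e1 := hcon _ h1 (card3 ..)
      have e2 := hcon _ h2 (card3 ..)
      simp only [map_add, map_smul, LinearMap.add_apply, LinearMap.smul_apply, smul_eq_mul] at e1 e2
      refine (mul_eq_zero.1 (?_ : (2 : F) * bform hF.nd (e k) x = 0)).resolve_left hF.two
      linear_combination e1 + e2
    intro u hu hu0
    obtain ⟨z, hz, hz3, hzu⟩ := spot u hu0
    have hz0 : z ≠ 0 := fun h => hzu (by rw [h]; simp)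
    obtain ⟨v, hv, hv3, hvz⟩ := spot z hz0
    exact ⟨z, ⟨hz, hz3⟩, v, ⟨hv, hv3⟩, by rwa [b_symm hF.nd], hzu⟩

end Frame

end CfsgLib.OrthFrame90
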