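import Cfsg.Agent.OrthFrame90.Climb
import Cfsg.Agent.Classical.Orth.Omega
import Cfsg.Agent.Classical.DecompProj

/-! Maximality of the stabiliser of an orthogonal frame, given the seven-dimensional case. -/

set_option autoImplicit false
set_option linter.unusedSectionVars false

namespace CfsgLib.OrthFrame90

open Cfsg Cfsg.Geo Module CfsgLib.OrthGeo Finset
open scoped Matrix MatrixGroups

attribute [-simp] bform_apply

variable {ι : Type} [Fintype ι] [DecidableEq ι] {F : Type*} [Field F] [Finite F]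
variable {Q : (ι → F) → F} {c : F} {e : ι → ι → F}

namespace Frame

variable (hF : Frame Q c e)
include hF

lemma q_pm {x y : ι} (hxy : x ≠ y) {s : F} (hs : s = 1 ∨ s = -1) : Q (e x + s • e y) = 2 * c := by
  rw [q_add hF.nd, q_smul hF.nd, hF.norm, hF.norm, map_smul, hF.b_ne hxy, smul_zero]
  rcases hs with rfl | rfl <;> ring

/-- Products of two reflections at frame vectors or at sums or differences of two. -/
lemma gens_omega (hn : 5 ≤ Fintype.card ι) {H : Subgroup (GL ι F)}
    (hH : ∀ g ∈ omegaGL Q, Mono e g → g ∈ H) : Gens e H := by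
  have hc := hF.ne
  have h2c := hF.two_c_ne
  have coef : c⁻¹ * (2 * c) = 2 := by field_simp
  have coef' : ∀ r : F, (2 * c)⁻¹ * (r * (2 * c)) = r := fun r => by
    rw [mul_comm r, ← mul_assoc, inv_mul_cancel₀ h2c, one_mul]
  constructor
  · intro a b hab
    have ha : Q (e a) ≠ 0 := by rw [hF.norm]; exact hc
    have hb : Q (e b) ≠ 0 := by rw [hF.norm]; exact hc
    set g := reflection hF.nd ha * reflection hF.nd hb with hg
    have g1 : ac g (e a) = -e a := by
      rw [hg, ac_mul]
      simp only [ac, reflection_mulVec, hF.norm, hF.b_ne (Ne.symm hab), mul_zero, zero_smul, sub_zero,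
        hF.b_ee, coef]
      module
    have g2 : ac g (e b) = -e b := by
      rw [hg, ac_mul]
      simp only [ac, reflection_mulVec, hF.norm, hF.b_ee, coef, map_sub, map_smul, smul_eq_mul,
        hF.b_ne hab, mul_zero, sub_zero, zero_smul]
      module
    have g3 : ∀ k, k ≠ a → k ≠ b → ac g (e k) = e k := fun k h1 h2 => by
      rw [hg, ac_mul]
      simp only [ac, reflection_mulVec, hF.b_ne (Ne.symm h1), hF.b_ne (Ne.symm h2), mul_zero, zero_smul, sub_zero]
    exact ⟨g, hH g (reflection_pair_mem_omega_of_eq hF.nd hn ha hb (by rw [hF.norm, hF.norm]))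
      (mono_flip g1 g2 g3), g1, g2, g3⟩
  · intro a b d hab hbd had
    have hv : Q (e a - e b) = 2 * c := by rw [q_sub hF.nd, hF.norm, hF.norm, hF.b_ne hab]; ring
    have hw : Q (e b - e d) = 2 * c := by rw [q_sub hF.nd, hF.norm, hF.norm, hF.b_ne hbd]; ring
    have hv0 : Q (e a - e b) ≠ 0 := by rw [hv]; exact h2c
    have hw0 : Q (e b - e d) ≠ 0 := by rw [hw]; exact h2c
    set g := reflection hF.nd hv0 * reflection hF.nd hw0 with hg
    have hb1 : ∀ x y : ι, x ≠ y → bform hF.nd (e x - e y) (e x) = 2 * c := fun x y h => by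
      rw [map_sub, LinearMap.sub_apply, hF.b_ee, hF.b_ne (Ne.symm h), sub_zero]
    have hb2 : ∀ x y : ι, x ≠ y → bform hF.nd (e x - e y) (e y) = -(2 * c) := fun x y h => by
      rw [map_sub, LinearMap.sub_apply, hF.b_ee, hF.b_ne h, zero_sub]
    have hb0 : ∀ x y k : ι, x ≠ k → y ≠ k → bform hF.nd (e x - e y) (e k) = 0 := fun x y k h h' => by
      rw [map_sub, LinearMap.sub_apply, hF.b_ne h, hF.b_ne h', sub_zero]
    have c1 : (2 * c)⁻¹ * (2 * c) = 1 := inv_mul_cancel₀ h2c
    have c2 : (2 * c)⁻¹ * -(2 * c) = -1 := by rw [mul_neg, c1]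
    have g1 : ac g (e a) = e b := by
      rw [hg, ac_mul]
      simp only [ac, reflection_mulVec, hv, hw, hb0 b d a (Ne.symm hab) (Ne.symm had), mul_zero, zero_smul,
        sub_zero, hb1 a b hab, c1, one_smul, sub_sub_cancel]
    have g2 : ac g (e b) = e d := by
      rw [hg, ac_mul]
      simp only [ac, reflection_mulVec, hv, hw, hb1 b d hbd, c1, one_smul, sub_sub_cancel,
        hb0 a b d had hbd, mul_zero, zero_smul, sub_zero]
    have g3 : ac g (e d) = e a := by
      rw [hg, ac_mul]
      simp only [ac, reflection_mulVec, hv, hw, hb2 b d hbd, c2, neg_smul, one_smul, sub_neg_eq_add,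
        add_sub_cancel, hb2 a b hab]
    have g4 : ∀ k, k ≠ a → k ≠ b → k ≠ d → ac g (e k) = e k := fun k h1 h2 h3 => by
      rw [hg, ac_mul]
      simp only [ac, reflection_mulVec, hb0 b d k (Ne.symm h2) (Ne.symm h3),
        hb0 a b k (Ne.symm h1) (Ne.symm h2), mul_zero, zero_smul, sub_zero]
    exact ⟨g, hH g (reflection_pair_mem_omega_of_eq hF.nd hn hv0 hw0 (by rw [hv, hw]))
      (mono_three g1 g2 g3 g4), g1, g2, g3, g4⟩
  · intro a b a' b' s s' hnd hs hs'
    simp only [List.nodup_cons, List.mem_cons, List.not_mem_nil, or_false, not_or, List.nodup_nil, and_true,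
      not_false_eq_true] at hnd
    obtain ⟨⟨hab, haa', hab'⟩, ⟨hba', hbb'⟩, ha'b'⟩ := hnd
    have hv := hF.q_pm hab hs
    have hw := hF.q_pm ha'b' hs'
    have hv0 : Q (e a + s • e b) ≠ 0 := by rw [hv]; exact h2c
    have hw0 : Q (e a' + s' • e b') ≠ 0 := by rw [hw]; exact h2c
    set g := reflection hF.nd hv0 * reflection hF.nd hw0 with hg
    have hb0 : ∀ (x y k : ι) (r : F), x ≠ k → y ≠ k → bform hF.nd (e x + r • e y) (e k) = 0 :=
      fun x y k r h h' => by
      rw [map_add, map_smul, LinearMap.add_apply, LinearMap.smul_apply, hF.b_ne h, hF.b_ne h', smul_zero, add_zero]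
    have hb1 : ∀ (x y : ι) (r : F), x ≠ y → bform hF.nd (e x + r • e y) (e x) = 1 * (2 * c) := fun x y r h => by
      rw [map_add, map_smul, LinearMap.add_apply, LinearMap.smul_apply, hF.b_ee, hF.b_ne (Ne.symm h), smul_zero,
        add_zero, one_mul]
    have hb2 : ∀ (x y : ι) (r : F), x ≠ y → bform hF.nd (e x + r • e y) (e y) = r * (2 * c) := fun x y r h => by
      rw [map_add, map_smul, LinearMap.add_apply, LinearMap.smul_apply, hF.b_ee, hF.b_ne h, zero_add, smul_eq_mul]
    have hss : s * s = 1 := by rcases hs with rfl | rfl <;> ring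
    have hss' : s' * s' = 1 := by rcases hs' with rfl | rfl <;> ring
    have g1 : ac g (e a) = -(s • e b) := by
      rw [hg, ac_mul]
      simp only [ac, reflection_mulVec, hv, hw, hb0 a' b' a s' (Ne.symm haa') (Ne.symm hab'), mul_zero, zero_smul,
        sub_zero, hb1 a b s hab, coef']
      module
    have g2 : ac g (e b) = -(s • e a) := by
      rw [hg, ac_mul]
      simp only [ac, reflection_mulVec, hv, hw, hb0 a' b' b s' (Ne.symm hba') (Ne.symm hbb'), mul_zero, zero_smul,
        sub_zero, hb2 a b s hab, coef']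
      rw [smul_add, smul_smul, hss]
      module
    have g3 : ac g (e a') = -(s' • e b') := by
      rw [hg, ac_mul]
      simp only [ac, reflection_mulVec, hv, hw, hb1 a' b' s' ha'b', coef', one_smul, sub_add_cancel_left,
        map_neg, map_smul, hb0 a b b' s hab' hbb', smul_zero, neg_zero, mul_zero, zero_smul, sub_zero]
    have g4 : ac g (e b') = -(s' • e a') := by
      rw [hg, ac_mul]
      simp only [ac, reflection_mulVec, hv, hw, hb2 a' b' s' ha'b', coef']
      rw [smul_add s', smul_smul, hss', one_smul, show e b' - (s' • e a' + e b') = -(s' • e a') by abel]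
      simp only [map_neg, map_smul, hb0 a b a' s haa' hba', smul_zero, neg_zero, mul_zero, zero_smul, sub_zero]
    have g5 : ∀ k, k ∉ [a, b, a', b'] → ac g (e k) = e k := fun k hk => by
      simp only [List.mem_cons, List.not_mem_nil, or_false, not_or] at hk
      rw [hg, ac_mul]
      simp only [ac, reflection_mulVec, hb0 a' b' k s' (Ne.symm hk.2.2.1) (Ne.symm hk.2.2.2),
        hb0 a b k s (Ne.symm hk.1) (Ne.symm hk.2.1), mul_zero, zero_smul, sub_zero]
    have pm : ∀ {x y : ι} {r : F}, (r = 1 ∨ r = -1) → ac g (e x) = -(r • e y) →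
        ∃ l, ac g (e x) = e l ∨ ac g (e x) = -e l := by
      intro x y r hr h
      refine ⟨y, ?_⟩
      rcases hr with rfl | rfl
      · right; rw [h, one_smul]
      · left; rw [h, neg_one_smul, neg_neg]
    have hmono : Mono e g := by
      intro k
      by_cases h1 : k = a; · exact h1 ▸ pm hs g1
      by_cases h2 : k = b; · exact h2 ▸ pm hs g2
      by_cases h3 : k = a'; · exact h3 ▸ pm hs' g3
      by_cases h4 : k = b'; · exact h4 ▸ pm hs' g4
      exact ⟨k, .inl (g5 k (by simp [h1, h2, h3, h4]))⟩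
    exact ⟨g, hH g (reflection_pair_mem_omega_of_eq hF.nd hn hv0 hw0 (by rw [hv, hw])) hmono, g1, g2, g3, g4, g5⟩

lemma noRefl {H : Subgroup (GL ι F)} (hH : H ≤ omegaGL Q) :
    ∀ (v : ι → F) (hv : Q v ≠ 0), reflection hF.nd hv ∉ H := by
  intro v hv hm
  have h1 : (Cfsg.reflectionMatrix Q v).det = 1 := OddInvolutions.det_of_mem_omegaGL (hH hm)
  rw [Classical.Orth.det_reflection hF.nd hv] at h1
  exact hF.two (by linear_combination -h1)

end Frame

/-- A decomposition into isometric non-degenerate lines is spanned by a frame. -/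
lemma exists_frame (hQ : IsNondegenerateQuadraticForm Q) (h2 : (2 : F) ≠ 0) {t : ℕ}
    {D : Fin t → Submodule F (ι → F)} (hD : IsOrthogonalMDecomposition Q 1 D) (hn : 1 ≤ Fintype.card ι) :
    ∃ (c : F) (e : ι → ι → F) (E : ι ≃ Fin t), Frame Q c e ∧ ∀ i, D (E i) = Submodule.span F {e i} := by
  classical
  have ht : t = Fintype.card ι := by
    have h := CfsgLib.DecompProj.mul_eq_card hD.decomp.decomp
    rwa [mul_one] at h
  choose v hv hspan using fun i => finrank_eq_one_iff'.1 (hD.decomp.decomp.finrank_eq i)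
  let i₀ : Fin t := ⟨0, by omega⟩
  choose φ hφ using fun i => hD.isometric i₀ i
  let f : Fin t → ι → F := fun i => (φ i (v i₀) : ι → F)
  have hf0 : ∀ i, φ i (v i₀) ≠ 0 := fun i h => hv i₀ ((map_eq_zero_iff _ (φ i).injective).1 h)
  have hDf : ∀ i, D i = Submodule.span F {f i} := by
    intro i
    refine le_antisymm (fun x hx => ?_) ((Submodule.span_singleton_le_iff_mem _ _).2 (φ i (v i₀)).2)
    obtain ⟨a, ha⟩ := hspan i ⟨x, hx⟩
    obtain ⟨b, hb⟩ := hspan i (φ i (v i₀))
    have hb0 : b ≠ 0 := fun h => hf0 i (by rw [← hb, h, zero_smul])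
    have hxa := congrArg Subtype.val ha
    have hfb := congrArg Subtype.val hb
    simp only [SetLike.val_smul] at hxa hfb
    refine Submodule.mem_span_singleton.2 ⟨a / b, ?_⟩
    rw [← hxa, show f i = b • (v i : ι → F) from hfb.symm, smul_smul, div_mul_cancel₀ _ hb0]
  have hc : Q (f i₀) ≠ 0 := by
    intro h0
    have hm : f i₀ ∈ D i₀ := (φ i₀ (v i₀)).2
    obtain ⟨x, hx, hxne⟩ := (hD.decomp.nondegenerate i₀) (f i₀) hm (fun h => hf0 i₀ (Subtype.ext h))|>.1
    rw [hDf i₀, Submodule.mem_span_singleton] at hx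
    obtain ⟨a, rfl⟩ := hx
    refine hxne ?_
    rw [← bform_apply hQ, map_smul, LinearMap.smul_apply, b_self, h0, mul_zero, smul_zero]
  let E : ι ≃ Fin t := (Fintype.equivFin ι).trans (finCongr ht.symm)
  refine ⟨Q (f i₀), fun i => f (E i), E, ⟨hQ, fun i => ?_, fun i j hij => ?_, hc, h2⟩, fun i => hDf _⟩
  · show Q (f (E i)) = Q (f i₀)
    simp only [f]
    rw [hφ, hφ]
  · exact hD.decomp.orthogonal _ _ (E.injective.ne hij) _ (φ _ (v i₀)).2 _ (φ _ (v i₀)).2

/-- The stabiliser of the decomposition consists of the monomial isometries. -/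
lemma mem_stab_iff {t : ℕ} {D : Fin t → Submodule F (ι → F)} {E : ι ≃ Fin t} (hF : Frame Q c e)
    (hDE : ∀ i, D (E i) = Submodule.span F {e i}) {g : GL ι F} (hg : g ∈ Cfsg.isometryGroup F Q) :
    g ∈ decompositionStabilizer D ↔ Mono e g := by
  have hmap : ∀ i, (D (E i)).map (Matrix.toLin' (g : Matrix ι ι F)) = Submodule.span F {ac g (e i)} := fun i => by
    rw [hDE, Submodule.map_span, Set.image_singleton, Matrix.toLin'_apply]; rfl
  constructor
  · rintro ⟨σ, hσ⟩ i
    have h := hσ (E i)
    rw [hmap, show D (σ (E i)) = Submodule.span F {e (E.symm (σ (E i)))} by rw [← hDE, E.apply_symm_apply]] at h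
    have hm := Submodule.mem_span_singleton_self (R := F) (ac g (e i))
    rw [h, Submodule.mem_span_singleton] at hm
    obtain ⟨a, ha⟩ := hm
    exact ⟨_, hF.pm_of_smul hg ha.symm⟩
  · intro hm
    obtain ⟨σ, hσ⟩ := hF.mono_perm hm
    refine ⟨(E.symm.trans σ).trans E, fun k => ?_⟩
    obtain ⟨i, rfl⟩ := E.surjective k
    rw [hmap, show ((E.symm.trans σ).trans E) (E i) = E (σ i) by simp, hDE]
    rcases hσ i with h | h <;> rw [h]
    rw [← Set.neg_singleton, Submodule.span_neg]

/-- The frame stabiliser in Omega is maximal from dimension nine on, given the seven-dimensional case. -/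
theorem frame_isMaximal_of_base (hQ : IsNondegenerateQuadraticForm Q) (hn : 9 ≤ Fintype.card ι)
    (h2 : (2 : F) ≠ 0) (hbase : BaseSeven F) {t : ℕ} {D : Fin t → Submodule F (ι → F)}
    (hD : IsOrthogonalMDecomposition Q 1 D) :
    IsMaximalIn (omegaGL Q) (decompositionStabilizer D ⊓ omegaGL Q) := by
  obtain ⟨c, e, E, hF, hDE⟩ := exists_frame hQ h2 hD (by omega)
  have hiff := fun {g : GL ι F} (hg : g ∈ omegaGL Q) => mem_stab_iff hF hDE (omegaGL_le hg)
  refine ⟨lt_of_le_not_ge inf_le_right fun hle => ?_, fun M hM hMO => ?_⟩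
  · obtain ⟨g, hg, hgm⟩ := hF.not_mono_omega (by omega)
    exact hgm ((hiff hg).1 (hle hg).1)
  rcases hF.mono_or_omega_le (hMO.trans omegaGL_le)
    (hF.gens_omega (by omega) fun g hg hm => hM ⟨(hiff hg).2 hm, hg⟩) hn (hF.noRefl hMO) hbase with h | h
  · exact Or.inl (le_antisymm (fun g hg => ⟨(hiff (hMO hg)).2 (h g hg), hMO hg⟩) hM)
  · exact Or.inr (le_antisymm hMO h)

end CfsgLib.OrthFrame90
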