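import Cfsg.Agent.OrthFrame90.Far

/-! Short vectors of a frame: there are at most `n ^ 2` lines of them, fewer than four-sets. -/

set_option autoImplicit false
set_option linter.unusedSectionVars false

namespace CfsgLib.OrthFrame90

open Cfsg Cfsg.Geo Module CfsgLib.OrthGeo Finset
open scoped Matrix MatrixGroups

attribute [-simp] bform_apply

variable {ι : Type} [Fintype ι] [DecidableEq ι] {F : Type*} [Field F]
variable {Q : (ι → F) → F} {c : F} {e : ι → ι → F}

/-- The representative short vector of an ordered pair of coordinates. -/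
noncomputable def shortVec (e : ι → ι → F) (p : ι × ι) : ι → F :=
  if p.1 = p.2 then e p.1
  else if Fintype.equivFin ι p.1 < Fintype.equivFin ι p.2 then e p.1 + e p.2 else e p.1 - e p.2

/-- A multiple of a frame vector or of a sum or difference of two of them. -/
def Short (e : ι → ι → F) (v : ι → F) : Prop := ∃ p : ι × ι, ∃ a : F, a ≠ 0 ∧ v = a • shortVec e p

lemma short_single (k : ι) {a : F} (ha : a ≠ 0) : Short e (a • e k) := ⟨(k, k), a, ha, by simp [shortVec]⟩

lemma short_add {k l : ι} (h : k ≠ l) {a : F} (ha : a ≠ 0) : Short e (a • (e k + e l)) := by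
  by_cases hlt : Fintype.equivFin ι k < Fintype.equivFin ι l
  · exact ⟨(k, l), a, ha, by simp [shortVec, h, hlt]⟩
  · have hlt' : Fintype.equivFin ι l < Fintype.equivFin ι k :=
      lt_of_le_of_ne (not_lt.1 hlt) fun h' => h ((Fintype.equivFin ι).injective h').symm
    exact ⟨(l, k), a, ha, by simp [shortVec, Ne.symm h, hlt', add_comm]⟩

lemma short_sub {k l : ι} (h : k ≠ l) {a : F} (ha : a ≠ 0) : Short e (a • (e k - e l)) := by
  by_cases hlt : Fintype.equivFin ι k < Fintype.equivFin ι l
  · have hlt' : ¬ Fintype.equivFin ι l < Fintype.equivFin ι k := fun h' => lt_asymm hlt h'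
    exact ⟨(l, k), -a, neg_ne_zero.2 ha, by
      simp only [shortVec, Ne.symm h, hlt', if_false]; rw [neg_smul, ← smul_neg, neg_sub]⟩
  · exact ⟨(k, l), a, ha, by simp [shortVec, h, hlt]⟩

lemma Short.smul {v : ι → F} (h : Short e v) {a : F} (ha : a ≠ 0) : Short e (a • v) := by
  obtain ⟨p, b, hb, rfl⟩ := h
  exact ⟨p, a * b, mul_ne_zero ha hb, by rw [smul_smul]⟩

lemma sq_lt_choose_four {n : ℕ} (hn : 9 ≤ n) : n ^ 2 < n.choose 4 := by
  induction n, hn using Nat.le_induction with
  | base => decide
  | succ n hn ih =>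
    rw [Nat.choose_succ_succ' n 3]
    have h3 : n ≤ n.choose 3 / 3 := by
      have hd : n.choose 3 * 6 = n * (n - 1) * (n - 2) := by
        have := Nat.descFactorial_eq_factorial_mul_choose n 3
        simp [Nat.descFactorial_succ, Nat.factorial] at this
        rw [mul_comm, ← this]; ring
      rw [Nat.le_div_iff_mul_le (by norm_num)]
      obtain ⟨m, rfl⟩ := Nat.exists_eq_add_of_le hn
      simp only [show 9 + m - 1 = 8 + m by omega, show 9 + m - 2 = 7 + m by omega] at hd
      nlinarith
    have : 3 * (n.choose 3 / 3) ≤ n.choose 3 := Nat.mul_div_le _ _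
    nlinarith

namespace Frame

variable (hF : Frame Q c e)
include hF

lemma supp_card {v : ι → F} (h : Short e v) : (hF.supp v).card ≤ 2 := by
  obtain ⟨⟨k, l⟩, a, ha, rfl⟩ := h
  rw [hF.supp_smul ha]
  have : hF.supp (shortVec e (k, l)) ⊆ {k, l} := by
    rw [shortVec]
    simp only
    split_ifs
    · simp [hF.supp_e]
    · exact (hF.supp_add_subset _ _).trans (by simp [hF.supp_e])
    · exact (hF.supp_sub_subset _ _).trans (by simp [hF.supp_e])
  exact (Finset.card_le_card this).trans Finset.card_le_two

/-- A non-zero displacement of a frame vector under a monomial isometry is short. -/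
lemma short_displacement {g : GL ι F} (hg : Mono e g) {k : ι} (hk : ac g (e k) ≠ e k) :
    Short e (ac g (e k) - e k) ∧ ∃ l, hF.supp (ac g (e k) - e k) ⊆ {k, l} := by
  obtain ⟨l, hl⟩ := hg k
  refine ⟨?_, l, (hF.supp_sub_subset _ _).trans ?_⟩
  · by_cases hkl : l = k
    · subst hkl
      rcases hl with h | h
      · exact absurd h hk
      · rw [h, show -e l - e l = (-2 : F) • e l by rw [neg_smul, two_smul]; abel]
        exact short_single _ (neg_ne_zero.2 hF.two)
    · rcases hl with h | h <;> rw [h]
      · simpa using short_sub (e := e) hkl (one_ne_zero (α := F))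
      · rw [show -e l - e k = (-1 : F) • (e l + e k) by rw [neg_one_smul]; abel]
        exact short_add hkl (neg_ne_zero.2 one_ne_zero)
  · rcases hl with h | h <;> rw [h] <;> simp [hF.supp_e, hF.supp_neg, Finset.subset_iff]

end Frame

end CfsgLib.OrthFrame90
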