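import Cfsg.Agent.OrthFrame90.Core

/-! The subgroup acting on a set of frame vectors, read in their coordinates. -/

set_option autoImplicit false
set_option linter.unusedSectionVars false

namespace CfsgLib.OrthFrame90

open Cfsg Cfsg.Geo Module CfsgLib.OrthGeo Finset
open scoped Matrix MatrixGroups

attribute [-simp] bform_apply

variable {ι : Type} [Fintype ι] [DecidableEq ι] {F : Type*} [Field F]
variable {κ : Type} [Fintype κ] [DecidableEq κ]
variable {Q : (ι → F) → F} {c : F} {e : ι → ι → F}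

/-- The form `c (x₁² + ⋯ + xₘ²)`. -/
def sumSq (κ : Type) [Fintype κ] (c : F) : (κ → F) → F := fun x => c * ∑ i, x i ^ 2

lemma polar_sumSq (x y : κ → F) : QuadraticMap.polar (sumSq κ c) x y = 2 * c * (x ⬝ᵥ y) := by
  simp only [QuadraticMap.polar, sumSq, dotProduct, Pi.add_apply, Finset.mul_sum, ← Finset.sum_sub_distrib]
  refine Finset.sum_congr rfl fun i _ => ?_
  ring

lemma frame_sumSq (hc : c ≠ 0) (h2 : (2 : F) ≠ 0) :
    Frame (sumSq κ c) c (fun i => (Pi.single i 1 : κ → F)) where
  nd :=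
    { smul := fun a v => by
        simp only [sumSq, Pi.smul_apply, smul_eq_mul, Finset.mul_sum]
        exact Finset.sum_congr rfl fun i _ => by ring
      polar_bilinear :=
        { add_left := fun x y v => by simp only [polar_sumSq, add_dotProduct]; ring
          smul_left := fun a x v => by simp only [polar_sumSq, smul_dotProduct, smul_eq_mul]; ring
          add_right := fun v x y => by simp only [polar_sumSq, dotProduct_add]; ring
          smul_right := fun a v x => by simp only [polar_sumSq, dotProduct_smul, smul_eq_mul]; ring }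
      nondegenerate := fun v hv => by
        obtain ⟨i, hi⟩ := Function.ne_iff.1 hv
        constructor <;> refine ⟨Pi.single i 1, ?_⟩ <;>
          simpa [polar_sumSq, hc, h2] using hi }
  norm i := by simp [sumSq, Pi.single_apply, Finset.sum_ite_eq']
  orth i j hij := by simp [polar_sumSq, Pi.single_eq_of_ne (Ne.symm hij)]
  ne := hc
  two := h2

/-- The vector with the given coordinates along chosen frame vectors. -/
def emb (e : ι → ι → F) (j : κ → ι) : (κ → F) →ₗ[F] (ι → F) where
  toFun x := ∑ i, x i • e (j i)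
  map_add' x y := by simp [add_smul, Finset.sum_add_distrib]
  map_smul' a x := by simp [smul_smul, Finset.smul_sum]

lemma emb_single (j : κ → ι) (i : κ) : emb e j (Pi.single i 1) = e (j i) := by
  simp [emb, Pi.single_apply, ite_smul]

/-- The isometries fixing every frame vector outside the image of `j`. -/
def fixOut (Q : (ι → F) → F) (e : ι → ι → F) (j : κ → ι) : Subgroup (GL ι F) where
  carrier := {g | g ∈ Cfsg.isometryGroup F Q ∧ ∀ k, (∀ i, j i ≠ k) → ac g (e k) = e k}
  one_mem' := ⟨one_mem _, fun k _ => ac_one _⟩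
  mul_mem' := fun {a b} ha hb => ⟨mul_mem ha.1 hb.1, fun k hk => by rw [ac_mul, hb.2 k hk, ha.2 k hk]⟩
  inv_mem' := fun {a} ha => ⟨inv_mem ha.1, fun k hk => by
    conv_lhs => rw [← ha.2 k hk]
    exact ac_inv_ac a _⟩

namespace Frame

variable (hF : Frame Q c e) {j : κ → ι} (hj : Function.Injective j)
include hF hj

lemma b_emb_frame (x : κ → F) (i : κ) : bform hF.nd (e (j i)) (emb e j x) = 2 * c * x i := by
  simp only [emb, LinearMap.coe_mk, AddHom.coe_mk, map_sum, map_smul, smul_eq_mul]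
  rw [Finset.sum_eq_single i (fun l _ hl => by rw [hF.b_ne (fun h => hl (hj h).symm), mul_zero]) (by simp), hF.b_ee]
  ring

omit hj in
lemma b_emb_out (x : κ → F) {k : ι} (hk : ∀ i, j i ≠ k) : bform hF.nd (e k) (emb e j x) = 0 := by
  simp only [emb, LinearMap.coe_mk, AddHom.coe_mk, map_sum, map_smul, smul_eq_mul]
  exact Finset.sum_eq_zero fun l _ => by rw [hF.b_ne (Ne.symm (hk l)), mul_zero]

lemma b_emb (x y : κ → F) :
    bform hF.nd (emb e j x) (emb e j y) = bform (frame_sumSq (κ := κ) hF.ne hF.two).nd x y := by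
  rw [bform_apply (frame_sumSq (κ := κ) hF.ne hF.two).nd, polar_sumSq]
  conv_lhs => arg 1; arg 2; simp only [emb, LinearMap.coe_mk, AddHom.coe_mk]
  rw [map_sum, LinearMap.sum_apply, dotProduct, Finset.mul_sum]
  refine Finset.sum_congr rfl fun i _ => ?_
  rw [map_smul, LinearMap.smul_apply, smul_eq_mul, hF.b_emb_frame hj]
  ring

lemma q_emb (x : κ → F) : Q (emb e j x) = sumSq κ c x := by
  have h := hF.b_emb hj x x
  rw [b_self, b_self] at h
  exact mul_left_cancel₀ hF.two h

lemma supp_emb (x : κ → F) : hF.supp (emb e j x) ⊆ univ.image j := by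
  rw [hF.supp_subset]
  intro k hk
  exact hF.b_emb_out x fun i h => hk (Finset.mem_image.2 ⟨i, Finset.mem_univ _, h⟩)

lemma exists_emb {v : ι → F} (hv : hF.supp v ⊆ univ.image j) : ∃ x, v = emb e j x := by
  refine ⟨fun i => bform hF.nd (e (j i)) v / (2 * c), hF.ext fun k => ?_⟩
  by_cases hk : ∃ i, j i = k
  · obtain ⟨i, rfl⟩ := hk
    rw [hF.b_emb_frame hj, mul_div_cancel₀ _ hF.two_c_ne]
  · push Not at hk
    rw [hF.b_emb_out _ hk, hF.supp_subset.1 hv k (by simpa using hk)]

/-- The matrix of an element of `fixOut` in the chosen coordinates. -/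
noncomputable def resMat (g : fixOut Q e j) : Matrix κ κ F :=
  Matrix.of fun i l => bform hF.nd (e (j i)) (ac (g : GL ι F) (e (j l))) / (2 * c)

lemma ac_emb (g : fixOut Q e j) (x : κ → F) : ac (g : GL ι F) (emb e j x) = emb e j (hF.resMat g *ᵥ x) := by
  refine hF.ext fun k => ?_
  have hlhs : bform hF.nd (e k) (ac (g : GL ι F) (emb e j x)) =
      ∑ l, x l * bform hF.nd (e k) (ac (g : GL ι F) (e (j l))) := by
    simp only [emb, LinearMap.coe_mk, AddHom.coe_mk, ac, Matrix.mulVec_sum, Matrix.mulVec_smul, map_sum,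
      map_smul, smul_eq_mul]
  by_cases hk : ∃ i, j i = k
  · obtain ⟨i, rfl⟩ := hk
    rw [hlhs, hF.b_emb_frame hj, Matrix.mulVec, dotProduct, Finset.mul_sum]
    refine Finset.sum_congr rfl fun l _ => ?_
    simp only [resMat, Matrix.of_apply]
    have h2 := hF.two
    have hc := hF.ne
    field_simp
  · push Not at hk
    rw [hF.b_emb_out _ hk]
    have h := b_ac hF.nd g.2.1 (e k) (emb e j x)
    rw [g.2.2 k hk, hF.b_emb_out _ hk] at h
    exact h

lemma emb_injective : Function.Injective (emb e j) := fun x y h => funext fun i => by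
  have h' := hF.b_emb_frame hj x i
  rw [h, hF.b_emb_frame hj] at h'
  exact (mul_left_cancel₀ hF.two_c_ne h').symm

/-- Restriction to the chosen coordinates. -/
noncomputable def res : fixOut Q e j →* GL κ F :=
  MonoidHom.toHomUnits
    { toFun := hF.resMat
      map_one' := Matrix.ext_of_mulVec_single fun i => hF.emb_injective hj (by
        rw [← hF.ac_emb hj, Matrix.one_mulVec, Subgroup.coe_one, ac_one])
      map_mul' := fun g h => Matrix.ext_of_mulVec_single fun i => hF.emb_injective hj (by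
        rw [← Matrix.mulVec_mulVec, ← hF.ac_emb hj, ← hF.ac_emb hj, ← hF.ac_emb hj, Subgroup.coe_mul, ac_mul]) }

lemma ac_res (g : fixOut Q e j) (x : κ → F) :
    ac (g : GL ι F) (emb e j x) = emb e j (ac (hF.res hj g) x) := hF.ac_emb hj g x

variable {H : Subgroup (GL ι F)}

/-- The part of `H` supported on the chosen coordinates, in those coordinates. -/
noncomputable def sub (H : Subgroup (GL ι F)) : Subgroup (GL κ F) :=
  (H.comap (fixOut Q e j).subtype).map (hF.res hj)

lemma mem_sub {x : GL κ F} : x ∈ hF.sub hj H ↔ ∃ g : fixOut Q e j, (g : GL ι F) ∈ H ∧ hF.res hj g = x := by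
  rw [sub, Subgroup.mem_map]; rfl

lemma sub_le_isometry : hF.sub hj H ≤ Cfsg.isometryGroup F (sumSq κ c) := by
  intro x hx
  obtain ⟨g, -, rfl⟩ := (hF.mem_sub hj).1 hx
  refine mem_isometryGroup.2 fun v => ?_
  rw [← hF.q_emb hj v, ← hF.q_emb hj]
  show Q (emb e j (ac (hF.res hj g) v)) = _
  rw [← hF.ac_res hj, Frame.q_ac g.2.1]

lemma sub_gens (hH : H ≤ Cfsg.isometryGroup F Q) (hG : Gens e H) :
    Gens (fun i => (Pi.single i 1 : κ → F)) (hF.sub hj H) := by
  have key : ∀ (g : fixOut Q e j) (i : κ) (v : κ → F), ac (g : GL ι F) (e (j i)) = emb e j v →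
      ac (hF.res hj g) (Pi.single i 1) = v := fun g i v h =>
    hF.emb_injective hj (by rw [← hF.ac_res hj, emb_single, h])
  constructor
  · intro a b hab
    obtain ⟨g, hg, h1, h2, h3⟩ := hG.flip (j a) (j b) (hj.ne hab)
    have hgf : g ∈ fixOut Q e j := ⟨hH hg, fun k hk => h3 k (Ne.symm (hk a)) (Ne.symm (hk b))⟩
    refine ⟨hF.res hj ⟨g, hgf⟩, (hF.mem_sub hj).2 ⟨_, hg, rfl⟩, ?_, ?_, ?_⟩
    · exact key _ a _ (by rw [map_neg, emb_single]; exact h1)
    · exact key _ b _ (by rw [map_neg, emb_single]; exact h2)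
    · exact fun k ha hb => key _ k _ (by rw [emb_single]; exact h3 _ (hj.ne ha) (hj.ne hb))
  · intro a b d hab hbd had
    obtain ⟨g, hg, h1, h2, h3, h4⟩ := hG.three (j a) (j b) (j d) (hj.ne hab) (hj.ne hbd) (hj.ne had)
    have hgf : g ∈ fixOut Q e j :=
      ⟨hH hg, fun k hk => h4 k (Ne.symm (hk a)) (Ne.symm (hk b)) (Ne.symm (hk d))⟩
    refine ⟨hF.res hj ⟨g, hgf⟩, (hF.mem_sub hj).2 ⟨_, hg, rfl⟩, ?_, ?_, ?_, ?_⟩
    · exact key _ a _ (by rw [emb_single]; exact h1)
    · exact key _ b _ (by rw [emb_single]; exact h2)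
    · exact key _ d _ (by rw [emb_single]; exact h3)
    · exact fun k ha hb hd => key _ k _ (by rw [emb_single]; exact h4 _ (hj.ne ha) (hj.ne hb) (hj.ne hd))
  · intro a b a' b' s s' hnd hs hs'
    have hnd' : [j a, j b, j a', j b'].Nodup := by simpa using hnd.map hj
    obtain ⟨g, hg, h1, h2, h3, h4, h5⟩ := hG.double (j a) (j b) (j a') (j b') s s' hnd' hs hs'
    have hgf : g ∈ fixOut Q e j := ⟨hH hg, fun k hk => h5 k (by
      simp [Ne.symm (hk a), Ne.symm (hk b), Ne.symm (hk a'), Ne.symm (hk b')])⟩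
    refine ⟨hF.res hj ⟨g, hgf⟩, (hF.mem_sub hj).2 ⟨_, hg, rfl⟩, ?_, ?_, ?_, ?_, ?_⟩
    · exact key _ a _ (by rw [map_neg, map_smul, emb_single]; exact h1)
    · exact key _ b _ (by rw [map_neg, map_smul, emb_single]; exact h2)
    · exact key _ a' _ (by rw [map_neg, map_smul, emb_single]; exact h3)
    · exact key _ b' _ (by rw [map_neg, map_smul, emb_single]; exact h4)
    · exact fun k hk => key _ k _ (by
        rw [emb_single]; exact h5 _ (by simpa [hj.eq_iff] using hk))

lemma sub_noRefl (hr : ∀ (v : ι → F) (hv : Q v ≠ 0), reflection hF.nd hv ∉ H) :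
    ∀ (v : κ → F) (hv : sumSq κ c v ≠ 0), reflection (frame_sumSq (κ := κ) hF.ne hF.two).nd hv ∉ hF.sub hj H := by
  intro v hv hmem
  obtain ⟨g, hg, he⟩ := (hF.mem_sub hj).1 hmem
  have hv' : Q (emb e j v) ≠ 0 := by rwa [hF.q_emb hj]
  refine hr _ hv' ?_
  convert hg using 1
  refine hF.gl_eq fun k => ?_
  by_cases hk : ∃ i, j i = k
  · obtain ⟨i, rfl⟩ := hk
    rw [← emb_single (e := e) j i, hF.ac_res hj, he]
    simp only [ac, reflection_mulVec, map_sub, map_smul, hF.q_emb hj, hF.b_emb hj]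
  · push Not at hk
    rw [g.2.2 k hk]
    show (reflection hF.nd hv' : Matrix ι ι F) *ᵥ e k = e k
    rw [reflection_mulVec, b_symm hF.nd, hF.b_emb_out _ hk, mul_zero, zero_smul, sub_zero]

/-- Monomial in coordinates means monomial. -/
lemma mono_of_res {g : fixOut Q e j} (h : Mono (fun i => (Pi.single i 1 : κ → F)) (hF.res hj g)) :
    Mono e (g : GL ι F) := by
  intro k
  by_cases hk : ∃ i, j i = k
  · obtain ⟨i, rfl⟩ := hk
    obtain ⟨l, hl⟩ := h i
    refine ⟨j l, ?_⟩
    rw [← emb_single (e := e) j i, hF.ac_res hj, ← emb_single (e := e) j l]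
    rcases hl with hl | hl
    · exact .inl (by rw [hl])
    · exact .inr (by rw [hl, map_neg])
  · push Not at hk
    exact ⟨k, .inl (g.2.2 k hk)⟩

/-- Root elements in coordinates are root elements. -/
lemma eIn_of_sub {a b : κ → F} {u w : ι → F} (hu : u = emb e j a) (hw : w = emb e j b)
    (h : EIn (sumSq κ c) (hF.sub hj H) a b) : EIn Q H u w := by
  obtain ⟨x, hx, hxv⟩ := h
  obtain ⟨g, hg, rfl⟩ := (hF.mem_sub hj).1 hx
  subst hu hw
  refine ⟨g, hg, Matrix.ext_of_mulVec_single fun l => ?_⟩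
  suffices ∀ y, ac (g : GL ι F) y = eichlerMat Q (emb e j a) (emb e j b) *ᵥ y from this _
  intro y
  conv_lhs => rw [hF.expand y]
  conv_rhs => rw [hF.expand y]
  simp only [ac, Matrix.mulVec_sum, Matrix.mulVec_smul]
  refine Finset.sum_congr rfl fun k _ => congrArg _ ?_
  show ac (g : GL ι F) (e k) = _
  rw [eichlerMat_mulVec hF.nd]
  by_cases hk : ∃ i, j i = k
  · obtain ⟨i, rfl⟩ := hk
    rw [← emb_single (e := e) j i, hF.ac_res hj]
    show emb e j (((hF.res hj g : GL κ F) : Matrix κ κ F) *ᵥ _) = _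
    rw [hxv, eichlerMat_mulVec (frame_sumSq (κ := κ) hF.ne hF.two).nd]
    simp only [map_sub, map_add, map_smul, hF.q_emb hj, hF.b_emb hj]
  · push Not at hk
    rw [g.2.2 k hk, b_symm hF.nd, hF.b_emb_out _ hk, b_symm hF.nd, hF.b_emb_out _ hk]
    simp

end Frame

end CfsgLib.OrthFrame90
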